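import Cfsg.Agent.S5060
import Mathlib
import Cfsg.Agent.H912.TensForm4
import Cfsg.Agent.H910.Transv
import Cfsg.Agent.H924.SympForm
set_option linter.all false

-- part: H914/RootPair
section
/-!
# Square-zero elements in finite matrix groups: pairs of root elements (helper914)

`M` is a group of units of an `F`-algebra `A`, `𝓝` a set of square-zero elements with `1 + N ∈ M`, invariant under `M`
and non-zero scalars, such that commuting elements of `𝓝` are proportional. Under a condition on degrees,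
`N₁ N₂ + N₂ N₁` is a non-zero scalar for all non-proportional `N₁, N₂ ∈ 𝓝` (`RootSet.anticomm_scalar`).
-/

set_option autoImplicit false
set_option linter.unusedSectionVars false

open Polynomial

namespace Cfsg.Agent.H914.RootPair

variable {F : Type*} [Field F] {A : Type*} [Ring A] [Algebra F A]

/-- A set of square-zero root elements. -/
structure RootSet (F : Type*) [Field F] {A : Type*} [Ring A] [Algebra F A] (M : Subgroup Aˣ) (S : Set A) : Prop where
  sq : ∀ N ∈ S, N * N = 0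
  smul : ∀ N ∈ S, ∀ c : F, c ≠ 0 → c • N ∈ S
  conj : ∀ g ∈ M, ∀ N ∈ S, (g : A) * N * ((g⁻¹ : Aˣ) : A) ∈ S
  mem : ∀ N ∈ S, ∀ g : Aˣ, (g : A) = 1 + N → g ∈ M
  comm : ∀ N ∈ S, ∀ N' ∈ S, N * N' = N' * N → ∃ c : F, N' = c • N
  ker : ∀ N ∈ S, ∀ e : A, e * e = e → e * N = N * e → (1 - e) * N = 0 → e = 1
  deg : ∀ N ∈ S, ∀ Z : A, Z * N = N * Z → ∃ χ : F[X], χ ≠ 0 ∧ χ.natDegree ≤ 3 ∧ aeval Z χ * N = 0

/-- The unit `1 + N`, `N² = 0`. -/
def unip (N : A) (h : N * N = 0) : Aˣ where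
  val := 1 + N
  inv := 1 - N
  val_inv := by
    rw [add_mul, one_mul, mul_sub, mul_one, h]
    abel
  inv_val := by
    rw [sub_mul, one_mul, mul_add, mul_one, h]
    abel

variable {M : Subgroup Aˣ} {S : Set A}

theorem RootSet.sq_smul (h : RootSet F M S) {N : A} (hN : N ∈ S) (c : F) : (c • N) * (c • N) = 0 := by
  rw [smul_mul_smul_comm, h.sq N hN, smul_zero]

theorem RootSet.unip_mem (h : RootSet F M S) {N : A} (hN : N ∈ S) (c : F) :
    unip (c • N) (h.sq_smul hN c) ∈ M := by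
  by_cases hc : c = 0
  · have : unip (c • N) (h.sq_smul hN c) = 1 := by
      apply Units.ext
      show 1 + c • N = 1
      rw [hc, zero_smul, add_zero]
    rw [this]
    exact M.one_mem
  · exact h.mem _ (h.smul N hN c hc) _ rfl

/-- The conjugate `(1 + a N₁) N₂ (1 - a N₁)`. -/
theorem RootSet.conj_mem (h : RootSet F M S) {N₁ N₂ : A} (h1 : N₁ ∈ S) (h2 : N₂ ∈ S) (a : F) :
    (1 + a • N₁) * N₂ * (1 - a • N₁) ∈ S := h.conj _ (h.unip_mem h1 a) _ h2

/-- `Z` commutes with the two elements. -/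
theorem Z_comm_left {N₁ N₂ : A} (h1 : N₁ * N₁ = 0) :
    (N₁ * N₂ + N₂ * N₁) * N₁ = N₁ * (N₁ * N₂ + N₂ * N₁) := by
  rw [add_mul, mul_add, mul_assoc N₂ N₁ N₁, h1, mul_zero, add_zero, ← mul_assoc N₁ N₁ N₂, h1, zero_mul, zero_add,
    mul_assoc]

theorem Z_comm_right {N₁ N₂ : A} (h2 : N₂ * N₂ = 0) :
    (N₁ * N₂ + N₂ * N₁) * N₂ = N₂ * (N₁ * N₂ + N₂ * N₁) := by
  rw [add_comm (N₁ * N₂) (N₂ * N₁)]
  exact Z_comm_left h2

theorem prop_symm {N₁ N₂ : A} (h : ∃ c : F, N₂ = c • N₁) (h2 : N₂ ≠ 0) : ∃ c : F, N₁ = c • N₂ := by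
  obtain ⟨c, hc⟩ := h
  have hc0 : c ≠ 0 := by
    rintro rfl
    rw [zero_smul] at hc
    exact h2 hc
  exact ⟨c⁻¹, by rw [hc, smul_smul, inv_mul_cancel₀ hc0, one_smul]⟩

/-- Anticommuting elements are proportional. -/
theorem RootSet.prop_of_anticomm (h : RootSet F M S) (h20 : (2 : F) ≠ 0) {N₁ N₂ : A} (h1 : N₁ ∈ S) (h2 : N₂ ∈ S)
    (hZ : N₁ * N₂ + N₂ * N₁ = 0) : ∃ c : F, N₂ = c • N₁ := by
  have s1 := h.sq _ h1
  have s2 := h.sq _ h2
  have hN : N₂ * N₁ = -(N₁ * N₂) := by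
    rw [eq_neg_iff_add_eq_zero, add_comm]; exact hZ
  -- it is enough to show that `N₁ N₂ = 0`
  suffices h0 : N₁ * N₂ = 0 by
    apply h.comm _ h1 _ h2
    rw [hN, h0, neg_zero]
  have hmem := h.conj_mem h1 h2 1
  have e1 : (1 + (1 : F) • N₁) * N₂ * (1 - (1 : F) • N₁) = N₂ + (2 : F) • (N₁ * N₂) := by
    rw [one_smul, two_smul]
    have e2 : (1 + N₁) * N₂ * (1 - N₁) = N₂ + N₁ * N₂ - N₂ * N₁ - N₁ * (N₂ * N₁) := by noncomm_ring
    rw [e2, hN, mul_neg, ← mul_assoc, s1, zero_mul]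
    abel
  rw [e1] at hmem
  obtain ⟨μ, hμ⟩ := h.comm _ h2 _ hmem (by
    rw [mul_add, add_mul, s2, mul_smul_comm, smul_mul_assoc, mul_assoc N₁ N₂ N₂, s2, mul_zero, smul_zero,
      ← mul_assoc, hN, neg_mul, mul_assoc, s2, mul_zero, neg_zero, smul_zero])
  have h3 : (2 : F) • (N₁ * N₂) = (μ - 1) • N₂ := by
    rw [sub_smul, one_smul, ← hμ]
    abel
  have h4 : (μ - 1) • (N₁ * N₂) = 0 := by
    have h5 := congrArg (fun x => N₁ * x) h3
    simp only [mul_smul_comm] at h5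
    rw [← mul_assoc, s1, zero_mul, smul_zero] at h5
    exact h5.symm
  by_cases hμ1 : μ - 1 = 0
  · rw [hμ1, zero_smul] at h3
    exact (smul_eq_zero.mp h3).resolve_left h20
  · exact (smul_eq_zero.mp h4).resolve_left hμ1

theorem conj_formula {N₁ N₂ : A} (a : F) :
    (1 + a • N₁) * N₂ * (1 - a • N₁) = N₂ + a • (N₁ * N₂ - N₂ * N₁) - (a ^ 2) • (N₁ * N₂ * N₁) := by
  rw [add_mul, one_mul, mul_sub, mul_one, add_mul]
  simp only [smul_mul_assoc, mul_smul_comm, smul_sub, smul_smul]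
  rw [pow_two]
  abel

/-- The anticommutator of the conjugate with `N₁`. -/
theorem anticomm_conj {N₁ N₂ : A} (s1 : N₁ * N₁ = 0) (a : F) :
    N₁ * ((1 + a • N₁) * N₂ * (1 - a • N₁)) + (1 + a • N₁) * N₂ * (1 - a • N₁) * N₁ = N₁ * N₂ + N₂ * N₁ := by
  rw [conj_formula]
  have e1 : N₁ * (N₁ * N₂) = 0 := by rw [← mul_assoc, s1, zero_mul]
  have e2 : N₂ * N₁ * N₁ = 0 := by rw [mul_assoc, s1, mul_zero]
  have e3 : N₁ * (N₁ * N₂ * N₁) = 0 := by rw [← mul_assoc, ← mul_assoc, s1, zero_mul, zero_mul]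
  have e4 : N₁ * N₂ * N₁ * N₁ = 0 := by rw [mul_assoc, s1, mul_zero]
  simp only [mul_add, add_mul, mul_sub, sub_mul, mul_smul_comm, smul_mul_assoc, e1, e2, e3, e4, smul_zero, smul_sub]
  rw [← mul_assoc N₁ N₂ N₁]
  abel

/-- The anticommutator of the conjugate with `N₂` is `-a² Z²`. -/
theorem anticomm_conj' {N₁ N₂ : A} (s1 : N₁ * N₁ = 0) (s2 : N₂ * N₂ = 0) (a : F) :
    N₂ * ((1 + a • N₁) * N₂ * (1 - a • N₁)) + (1 + a • N₁) * N₂ * (1 - a • N₁) * N₂ =
      -(a ^ 2 • ((N₁ * N₂ + N₂ * N₁) * (N₁ * N₂ + N₂ * N₁))) := by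
  rw [conj_formula]
  have e1 : N₂ * (N₂ * N₁) = 0 := by rw [← mul_assoc, s2, zero_mul]
  have e2 : N₁ * N₂ * N₂ = 0 := by rw [mul_assoc, s2, mul_zero]
  have e3 : N₁ * N₂ * (N₂ * N₁) = 0 := by rw [mul_assoc, ← mul_assoc N₂, s2, zero_mul, mul_zero]
  have e4 : N₂ * N₁ * (N₁ * N₂) = 0 := by rw [mul_assoc, ← mul_assoc N₁, s1, zero_mul, mul_zero]
  simp only [mul_add, add_mul, mul_sub, sub_mul, mul_smul_comm, smul_mul_assoc, e1, e2, e3, e4, s2, smul_zero,
    smul_sub, smul_add, zero_add, add_zero, sub_zero, zero_sub, neg_add]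
  simp only [mul_assoc]
  abel

/-- `(L1)` If the anticommutator is nilpotent, the elements are proportional. -/
theorem RootSet.prop_of_nilpotent (h : RootSet F M S) (h20 : (2 : F) ≠ 0) (k : ℕ) :
    ∀ N₁ ∈ S, ∀ N₂ ∈ S, (N₁ * N₂ + N₂ * N₁) ^ (2 ^ k) = 0 → ∃ c : F, N₂ = c • N₁ := by
  induction k with
  | zero =>
    intro N₁ h1 N₂ h2 hZ
    rw [pow_zero, pow_one] at hZ
    exact h.prop_of_anticomm h20 h1 h2 hZ
  | succ k ih =>
    intro N₁ h1 N₂ h2 hZ
    by_cases hZ0 : N₁ * N₂ + N₂ * N₁ = 0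
    · exact h.prop_of_anticomm h20 h1 h2 hZ0
    have s1 := h.sq _ h1
    have s2 := h.sq _ h2
    have hmem := h.conj_mem h1 h2 1
    have hanti := anticomm_conj' (F := F) s1 s2 1
    simp only [one_pow, one_smul] at hanti
    obtain ⟨μ, hμ⟩ := ih N₂ h2 _ hmem (by
      simp only [one_smul]
      rw [hanti, neg_pow, ← pow_two, ← pow_mul, ← pow_succ', hZ, mul_zero])
    have h3 := anticomm_conj (N₂ := N₂) s1 (1 : F)
    rw [hμ, mul_smul_comm, smul_mul_assoc, ← smul_add] at h3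
    have hμ1 : μ = 1 := by
      have h4 : (μ - 1) • (N₁ * N₂ + N₂ * N₁) = 0 := by rw [sub_smul, h3, one_smul, sub_self]
      exact sub_eq_zero.mp ((smul_eq_zero.mp h4).resolve_right hZ0)
    rw [hμ1, conj_formula] at hμ
    simp only [one_pow, one_smul] at hμ
    -- `N₁ N₂ - N₂ N₁ = N₁ N₂ N₁`
    have h5 : N₁ * N₂ - N₂ * N₁ = N₁ * N₂ * N₁ := by
      have h6 : N₂ + (N₁ * N₂ - N₂ * N₁) - N₁ * N₂ * N₁ - N₂ = 0 := by rw [hμ, sub_self]
      have h7 : N₂ + (N₁ * N₂ - N₂ * N₁) - N₁ * N₂ * N₁ - N₂ = N₁ * N₂ - N₂ * N₁ - N₁ * N₂ * N₁ := by abel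
      rw [h7] at h6
      exact sub_eq_zero.mp h6
    have h8 : N₁ * N₂ * N₁ = 0 := by
      have h9 := congrArg (fun x => x * N₁) h5
      simp only [sub_mul] at h9
      rw [mul_assoc N₂ N₁ N₁, s1, mul_zero, sub_zero, mul_assoc (N₁ * N₂) N₁ N₁, s1, mul_zero] at h9
      exact h9
    rw [h8, sub_eq_zero] at h5
    exact h.comm _ h1 _ h2 h5

theorem RootSet.prop_of_isNilpotent (h : RootSet F M S) (h20 : (2 : F) ≠ 0) {N₁ N₂ : A} (h1 : N₁ ∈ S) (h2 : N₂ ∈ S)
    (hZ : IsNilpotent (N₁ * N₂ + N₂ * N₁)) : ∃ c : F, N₂ = c • N₁ := by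
  obtain ⟨n, hn⟩ := hZ
  refine h.prop_of_nilpotent h20 n N₁ h1 N₂ h2 ?_
  obtain ⟨k, hk⟩ := Nat.exists_eq_add_of_le (Nat.lt_two_pow_self (n := n)).le
  rw [hk, pow_add, hn, zero_mul]

end Cfsg.Agent.H914.RootPair
end

-- part: H914/RootPair2
section
/-!
# Pairs of root elements, II: the use of Dickson's theorem (helper914)
-/

set_option autoImplicit false
set_option linter.unusedSectionVars false

open Polynomial

namespace Cfsg.Agent.H914.RootPair

variable {F : Type*} [Field F] {A : Type*} [Ring A] [Algebra F A] {k : Type*} [Field k] [Algebra F k]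

/-- `ρ` is a (non-unital) representation of the field `k` by elements commuting with `N₁, N₂`, the anticommutator acts
as `α` on the image of the idempotent `ρ 1`, and `N₁ N₂ = N₂ N₁ = 0` on its kernel. -/
structure KData (F : Type*) [Field F] {A : Type*} [Ring A] [Algebra F A] {k : Type*} [Field k] [Algebra F k]
    (N₁ N₂ : A) (ρ : k → A) (α : k) : Prop where
  s1 : N₁ * N₁ = 0
  s2 : N₂ * N₂ = 0
  add : ∀ x y, ρ (x + y) = ρ x + ρ y
  mul : ∀ x y, ρ (x * y) = ρ x * ρ y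
  alg : ∀ (c : F) x, ρ (algebraMap F k c * x) = c • ρ x
  c1 : ∀ x, ρ x * N₁ = N₁ * ρ x
  c2 : ∀ x, ρ x * N₂ = N₂ * ρ x
  a : ρ α = (N₁ * N₂ + N₂ * N₁) * ρ 1
  a0 : α ≠ 0
  z1 : (1 - ρ 1) * (N₁ * N₂) = 0
  z2 : (1 - ρ 1) * (N₂ * N₁) = 0

namespace KData

variable {N₁ N₂ : A} {ρ : k → A} {α : k}

theorem zero (h : KData F N₁ N₂ ρ α) : ρ 0 = 0 := by
  have := h.add 0 0
  rw [add_zero] at this
  exact left_eq_add.mp this

theorem one_mul' (h : KData F N₁ N₂ ρ α) (x : k) : ρ 1 * ρ x = ρ x := by rw [← h.mul, one_mul]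

theorem mul_one' (h : KData F N₁ N₂ ρ α) (x : k) : ρ x * ρ 1 = ρ x := by rw [← h.mul, mul_one]

/-- The matrix units. -/
def E (N₁ N₂ : A) (ρ : k → A) (α : k) : Fin 2 → Fin 2 → A :=
  ![![ρ α⁻¹ * (N₁ * N₂), ρ 1 * N₁], ![ρ α⁻¹ * N₂, ρ α⁻¹ * (N₂ * N₁)]]

theorem c12 (h : KData F N₁ N₂ ρ α) (x : k) : ρ x * (N₁ * N₂) = (N₁ * N₂) * ρ x := by
  rw [← mul_assoc, h.c1, mul_assoc, h.c2, mul_assoc]

theorem c21 (h : KData F N₁ N₂ ρ α) (x : k) : ρ x * (N₂ * N₁) = (N₂ * N₁) * ρ x := by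
  rw [← mul_assoc, h.c2, mul_assoc, h.c1, mul_assoc]

theorem cc (h : KData F N₁ N₂ ρ α) (x y : k) : ρ x * ρ y = ρ y * ρ x := by
  rw [← h.mul, mul_comm, h.mul]

/-- `ρ x` commutes with the matrix units. -/
theorem E_comm (h : KData F N₁ N₂ ρ α) (x : k) (i j : Fin 2) : ρ x * E N₁ N₂ ρ α i j = E N₁ N₂ ρ α i j * ρ x := by
  fin_cases i <;> fin_cases j
  · show ρ x * (ρ α⁻¹ * (N₁ * N₂)) = ρ α⁻¹ * (N₁ * N₂) * ρ x
    rw [← mul_assoc, h.cc, mul_assoc, h.c12, mul_assoc (ρ α⁻¹)]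
  · show ρ x * (ρ 1 * N₁) = ρ 1 * N₁ * ρ x
    rw [← mul_assoc, h.cc, mul_assoc, h.c1, mul_assoc]
  · show ρ x * (ρ α⁻¹ * N₂) = ρ α⁻¹ * N₂ * ρ x
    rw [← mul_assoc, h.cc, mul_assoc, h.c2, mul_assoc]
  · show ρ x * (ρ α⁻¹ * (N₂ * N₁)) = ρ α⁻¹ * (N₂ * N₁) * ρ x
    rw [← mul_assoc, h.cc, mul_assoc, h.c21, mul_assoc (ρ α⁻¹)]

theorem one_E (h : KData F N₁ N₂ ρ α) (i j : Fin 2) : ρ 1 * E N₁ N₂ ρ α i j = E N₁ N₂ ρ α i j := by
  fin_cases i <;> fin_cases j
  · show ρ 1 * (ρ α⁻¹ * (N₁ * N₂)) = ρ α⁻¹ * (N₁ * N₂)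
    rw [← mul_assoc, h.one_mul']
  · show ρ 1 * (ρ 1 * N₁) = ρ 1 * N₁
    rw [← mul_assoc, h.one_mul']
  · show ρ 1 * (ρ α⁻¹ * N₂) = ρ α⁻¹ * N₂
    rw [← mul_assoc, h.one_mul']
  · show ρ 1 * (ρ α⁻¹ * (N₂ * N₁)) = ρ α⁻¹ * (N₂ * N₁)
    rw [← mul_assoc, h.one_mul']

/-- `N₁ N₂ N₁ = Z N₁`. -/
theorem n121 (h : KData F N₁ N₂ ρ α) (x : k) : ρ x * (N₁ * N₂ * N₁) = ρ (x * α) * N₁ := by
  have e : (N₁ * N₂ + N₂ * N₁) * N₁ = N₁ * N₂ * N₁ := by
    rw [add_mul, mul_assoc N₂ N₁ N₁, h.s1, mul_zero, add_zero]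
  have e2 : ρ 1 * (N₁ * N₂ * N₁) = N₁ * N₂ * N₁ * ρ 1 := by
    rw [← mul_assoc, h.c12, mul_assoc, h.c1, ← mul_assoc]
  symm
  calc ρ (x * α) * N₁ = ρ x * (((N₁ * N₂ + N₂ * N₁) * ρ 1) * N₁) := by rw [h.mul, mul_assoc, h.a]
    _ = ρ x * ((N₁ * N₂ + N₂ * N₁) * N₁ * ρ 1) := by
        rw [mul_assoc (N₁ * N₂ + N₂ * N₁) (ρ 1), h.c1, ← mul_assoc (N₁ * N₂ + N₂ * N₁)]
    _ = ρ x * (N₁ * N₂ * N₁) := by rw [e, ← e2, ← mul_assoc, h.mul_one']

theorem n212 (h : KData F N₁ N₂ ρ α) (x : k) : ρ x * (N₂ * N₁ * N₂) = ρ (x * α) * N₂ := by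
  have e : (N₁ * N₂ + N₂ * N₁) * N₂ = N₂ * N₁ * N₂ := by
    rw [add_mul, mul_assoc N₁ N₂ N₂, h.s2, mul_zero, zero_add]
  have e2 : ρ 1 * (N₂ * N₁ * N₂) = N₂ * N₁ * N₂ * ρ 1 := by
    rw [← mul_assoc, h.c21, mul_assoc, h.c2, ← mul_assoc]
  symm
  calc ρ (x * α) * N₂ = ρ x * (((N₁ * N₂ + N₂ * N₁) * ρ 1) * N₂) := by rw [h.mul, mul_assoc, h.a]
    _ = ρ x * ((N₁ * N₂ + N₂ * N₁) * N₂ * ρ 1) := by
        rw [mul_assoc (N₁ * N₂ + N₂ * N₁) (ρ 1), h.c2, ← mul_assoc (N₁ * N₂ + N₂ * N₁)]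
    _ = ρ x * (N₂ * N₁ * N₂) := by rw [e, ← e2, ← mul_assoc, h.mul_one']

/-- The relations between the matrix units. -/
theorem E_mul (h : KData F N₁ N₂ ρ α) (i j l m : Fin 2) :
    E N₁ N₂ ρ α i j * E N₁ N₂ ρ α l m = if j = l then E N₁ N₂ ρ α i m else 0 := by
  have ha : α⁻¹ * α = 1 := inv_mul_cancel₀ h.a0
  have ha' : α⁻¹ * α⁻¹ * α = α⁻¹ := by rw [mul_assoc, ha, mul_one]
  have s1 := h.s1
  have s2 := h.s2
  fin_cases i <;> fin_cases j <;> fin_cases l <;> fin_cases m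
  · show ρ α⁻¹ * (N₁ * N₂) * (ρ α⁻¹ * (N₁ * N₂)) = ρ α⁻¹ * (N₁ * N₂)
    rw [mul_assoc, ← mul_assoc (N₁ * N₂), ← h.c12, mul_assoc (ρ α⁻¹) (N₁ * N₂), ← mul_assoc (ρ α⁻¹) (ρ α⁻¹), ← h.mul,
      ← mul_assoc (N₁ * N₂) N₁ N₂, ← mul_assoc, h.n121, ha', mul_assoc]
  · show ρ α⁻¹ * (N₁ * N₂) * (ρ 1 * N₁) = ρ 1 * N₁
    rw [mul_assoc, ← mul_assoc (N₁ * N₂), ← h.c12, mul_assoc (ρ 1), ← mul_assoc (ρ α⁻¹), h.mul_one', h.n121, ha]
  · show ρ α⁻¹ * (N₁ * N₂) * (ρ α⁻¹ * N₂) = 0
    rw [h.c2, ← mul_assoc, mul_assoc (ρ α⁻¹) (N₁ * N₂) N₂, mul_assoc N₁ N₂ N₂, s2, mul_zero, mul_zero, zero_mul]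
  · show ρ α⁻¹ * (N₁ * N₂) * (ρ α⁻¹ * (N₂ * N₁)) = 0
    rw [h.c21, ← mul_assoc, mul_assoc (ρ α⁻¹) (N₁ * N₂), mul_assoc N₁ N₂, ← mul_assoc N₂ N₂, s2, zero_mul, mul_zero,
      mul_zero, zero_mul]
  · show ρ 1 * N₁ * (ρ α⁻¹ * (N₁ * N₂)) = 0
    rw [h.c12, ← mul_assoc, mul_assoc (ρ 1) N₁, ← mul_assoc N₁ N₁, s1, zero_mul, mul_zero, zero_mul]
  · show ρ 1 * N₁ * (ρ 1 * N₁) = 0
    rw [h.c1, ← mul_assoc, mul_assoc N₁ (ρ 1), h.c1, ← mul_assoc, s1, zero_mul, zero_mul]
  · show ρ 1 * N₁ * (ρ α⁻¹ * N₂) = ρ α⁻¹ * (N₁ * N₂)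
    rw [mul_assoc, ← mul_assoc N₁, ← h.c1, mul_assoc (ρ α⁻¹), ← mul_assoc, h.one_mul']
  · show ρ 1 * N₁ * (ρ α⁻¹ * (N₂ * N₁)) = ρ 1 * N₁
    rw [mul_assoc, ← mul_assoc N₁, ← h.c1, mul_assoc (ρ α⁻¹), ← mul_assoc (ρ 1), h.one_mul', ← mul_assoc N₁, h.n121, ha]
  · show ρ α⁻¹ * N₂ * (ρ α⁻¹ * (N₁ * N₂)) = ρ α⁻¹ * N₂
    rw [mul_assoc, ← mul_assoc N₂, ← h.c2, mul_assoc (ρ α⁻¹) N₂, ← mul_assoc (ρ α⁻¹) (ρ α⁻¹), ← h.mul, ← mul_assoc N₂,
      h.n212, ha']
  · show ρ α⁻¹ * N₂ * (ρ 1 * N₁) = ρ α⁻¹ * (N₂ * N₁)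
    rw [mul_assoc, ← mul_assoc N₂, ← h.c2, mul_assoc (ρ 1), ← mul_assoc (ρ α⁻¹), h.mul_one']
  · show ρ α⁻¹ * N₂ * (ρ α⁻¹ * N₂) = 0
    rw [h.c2, ← mul_assoc, mul_assoc N₂ (ρ α⁻¹), h.c2, ← mul_assoc, s2, zero_mul, zero_mul]
  · show ρ α⁻¹ * N₂ * (ρ α⁻¹ * (N₂ * N₁)) = 0
    rw [h.c21, ← mul_assoc, mul_assoc (ρ α⁻¹) N₂, ← mul_assoc N₂ N₂, s2, zero_mul, mul_zero, zero_mul]
  · show ρ α⁻¹ * (N₂ * N₁) * (ρ α⁻¹ * (N₁ * N₂)) = 0
    rw [h.c12, ← mul_assoc, mul_assoc (ρ α⁻¹) (N₂ * N₁), mul_assoc N₂ N₁, ← mul_assoc N₁ N₁, s1, zero_mul, mul_zero,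
      mul_zero, zero_mul]
  · show ρ α⁻¹ * (N₂ * N₁) * (ρ 1 * N₁) = 0
    rw [h.c1, ← mul_assoc, mul_assoc (ρ α⁻¹) (N₂ * N₁) N₁, mul_assoc N₂ N₁ N₁, s1, mul_zero, mul_zero, zero_mul]
  · show ρ α⁻¹ * (N₂ * N₁) * (ρ α⁻¹ * N₂) = ρ α⁻¹ * N₂
    rw [mul_assoc, ← mul_assoc (N₂ * N₁), ← h.c21, mul_assoc (ρ α⁻¹), ← mul_assoc (ρ α⁻¹), ← h.mul, h.n212, ha']
  · show ρ α⁻¹ * (N₂ * N₁) * (ρ α⁻¹ * (N₂ * N₁)) = ρ α⁻¹ * (N₂ * N₁)
    rw [mul_assoc, ← mul_assoc (N₂ * N₁), ← h.c21, mul_assoc (ρ α⁻¹) (N₂ * N₁), ← mul_assoc (ρ α⁻¹) (ρ α⁻¹), ← h.mul,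
      ← mul_assoc (N₂ * N₁) N₂ N₁, ← mul_assoc, h.n212, ha', mul_assoc]

theorem E_sum (h : KData F N₁ N₂ ρ α) : E N₁ N₂ ρ α 0 0 + E N₁ N₂ ρ α 1 1 = ρ 1 := by
  show ρ α⁻¹ * (N₁ * N₂) + ρ α⁻¹ * (N₂ * N₁) = ρ 1
  rw [← mul_add]
  have h1 : ρ α⁻¹ * ρ α = ρ 1 := by rw [← h.mul, inv_mul_cancel₀ h.a0]
  rw [h.a, ← mul_assoc, mul_add (ρ α⁻¹), h.c12, h.c21, add_mul, mul_assoc, mul_assoc (N₂ * N₁), h.mul_one',
    ← h.c12, ← h.c21, ← mul_add] at h1
  exact h1

/-- The representation of `M₂(k)` extended by the exponent-`p` part on the kernel of `ρ 1`. -/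
noncomputable def Psi (N₁ N₂ : A) (ρ : k → A) (α : k) (B : Matrix (Fin 2) (Fin 2) k) (x y : F) : A :=
  ∑ i, ∑ j, ρ (B i j) * E N₁ N₂ ρ α i j + (1 - ρ 1) * (1 + x • N₁ + y • N₂)

theorem sum_mul (h : KData F N₁ N₂ ρ α) (s : Finset (Fin 2)) (f : Fin 2 → k) (a : A) :
    ρ (∑ i ∈ s, f i) * a = ∑ i ∈ s, ρ (f i) * a := by
  classical
  induction s using Finset.induction_on with
  | empty => rw [Finset.sum_empty, Finset.sum_empty, h.zero, zero_mul]
  | insert i s hi ih => rw [Finset.sum_insert hi, Finset.sum_insert hi, h.add, add_mul, ih]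

theorem Phi_mul (h : KData F N₁ N₂ ρ α) (B B' : Matrix (Fin 2) (Fin 2) k) :
    (∑ i, ∑ j, ρ (B i j) * E N₁ N₂ ρ α i j) * (∑ i, ∑ j, ρ (B' i j) * E N₁ N₂ ρ α i j) =
      ∑ i, ∑ j, ρ ((B * B') i j) * E N₁ N₂ ρ α i j := by
  have key : ∀ i j l m, (ρ (B i j) * E N₁ N₂ ρ α i j) * (ρ (B' l m) * E N₁ N₂ ρ α l m) =
      if j = l then ρ (B i j * B' l m) * E N₁ N₂ ρ α i m else 0 := by
    intro i j l m
    rw [mul_assoc, ← mul_assoc (E N₁ N₂ ρ α i j), ← h.E_comm, mul_assoc (ρ (B' l m)), h.E_mul, ← mul_assoc, ← h.mul]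
    split_ifs
    · rfl
    · rw [mul_zero]
  rw [Finset.sum_mul]
  refine Finset.sum_congr rfl fun i _ => ?_
  rw [Finset.sum_mul]
  simp only [Finset.mul_sum, key]
  calc _ = ∑ j, ∑ m, ρ (B i j * B' j m) * E N₁ N₂ ρ α i m := by
        refine Finset.sum_congr rfl fun j _ => ?_
        rw [Finset.sum_eq_single j]
        · simp
        · intro l _ hl
          simp [hl.symm]
        · intro hj; exact absurd (Finset.mem_univ j) hj
    _ = _ := by
        rw [Finset.sum_comm]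
        refine Finset.sum_congr rfl fun m _ => ?_
        rw [Matrix.mul_apply, h.sum_mul]

theorem tail_comm (h : KData F N₁ N₂ ρ α) (x y : F) :
    (1 - ρ 1) * (1 + x • N₁ + y • N₂) = (1 + x • N₁ + y • N₂) * (1 - ρ 1) := by
  have e1 : Commute (1 - ρ 1) N₁ := (Commute.one_left N₁).sub_left (h.c1 1)
  have e2 : Commute (1 - ρ 1) N₂ := (Commute.one_left N₂).sub_left (h.c2 1)
  exact ((Commute.one_right _).add_right (e1.smul_right x)).add_right (e2.smul_right y)

/-- The product of the second parts. -/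
theorem tail_mul (h : KData F N₁ N₂ ρ α) (x y x' y' : F) :
    ((1 - ρ 1) * (1 + x • N₁ + y • N₂)) * ((1 - ρ 1) * (1 + x' • N₁ + y' • N₂)) =
      (1 - ρ 1) * (1 + (x + x') • N₁ + (y + y') • N₂) := by
  have h1 : (1 + x • N₁ + y • N₂) * (1 - ρ 1) = (1 - ρ 1) * (1 + x • N₁ + y • N₂) := (h.tail_comm x y).symm
  have h2 : (1 - ρ 1) * (1 - ρ 1) = 1 - ρ 1 := by
    have e3 := h.mul_one' 1
    simp only [mul_sub, sub_mul, mul_one, one_mul, e3]
    abel
  have h3 : (1 + x • N₁ + y • N₂) * (1 + x' • N₁ + y' • N₂) =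
      (1 + (x + x') • N₁ + (y + y') • N₂) + ((x * y') • (N₁ * N₂) + (y * x') • (N₂ * N₁)) := by
    simp only [mul_add, add_mul, mul_one, one_mul, smul_mul_assoc, mul_smul_comm, h.s1, h.s2]
    module
  have h4 : (1 - ρ 1) * ((x * y') • (N₁ * N₂) + (y * x') • (N₂ * N₁)) = 0 := by
    rw [mul_add, mul_smul_comm, mul_smul_comm, h.z1, h.z2, smul_zero, smul_zero, add_zero]
  rw [mul_assoc, ← mul_assoc _ (1 - ρ 1), h1, mul_assoc, ← mul_assoc (1 - ρ 1), h2, h3, mul_add, h4, add_zero]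

theorem one_Phi (h : KData F N₁ N₂ ρ α) (B : Matrix (Fin 2) (Fin 2) k) :
    (1 - ρ 1) * (∑ i, ∑ j, ρ (B i j) * E N₁ N₂ ρ α i j) = 0 := by
  rw [Finset.mul_sum]
  refine Finset.sum_eq_zero fun i _ => ?_
  rw [Finset.mul_sum]
  refine Finset.sum_eq_zero fun j _ => ?_
  rw [← mul_assoc, sub_mul, one_mul, h.one_mul', sub_self, zero_mul]

theorem Phi_one (h : KData F N₁ N₂ ρ α) (B : Matrix (Fin 2) (Fin 2) k) :
    (∑ i, ∑ j, ρ (B i j) * E N₁ N₂ ρ α i j) * (1 - ρ 1) = 0 := by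
  rw [Finset.sum_mul]
  refine Finset.sum_eq_zero fun i _ => ?_
  rw [Finset.sum_mul]
  refine Finset.sum_eq_zero fun j _ => ?_
  rw [mul_sub, mul_one, mul_assoc, ← h.E_comm, h.one_E, sub_self]

theorem Psi_mul (h : KData F N₁ N₂ ρ α) (B B' : Matrix (Fin 2) (Fin 2) k) (x y x' y' : F) :
    Psi N₁ N₂ ρ α B x y * Psi N₁ N₂ ρ α B' x' y' = Psi N₁ N₂ ρ α (B * B') (x + x') (y + y') := by
  have h1 : (1 + x • N₁ + y • N₂) * (1 - ρ 1) = (1 - ρ 1) * (1 + x • N₁ + y • N₂) := (h.tail_comm x y).symm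
  have h2 : ∀ a b c d : A, (a + b) * (c + d) = a * c + a * d + (b * c + b * d) := fun a b c d => by
    rw [add_mul, mul_add, mul_add]
  unfold Psi
  rw [h2, h.Phi_mul, h.tail_mul, ← mul_assoc _ (1 - ρ 1), h.Phi_one, zero_mul, add_zero,
    ← h1, mul_assoc _ (1 - ρ 1), h.one_Phi, mul_zero, zero_add]

theorem Psi_one (h : KData F N₁ N₂ ρ α) : Psi N₁ N₂ ρ α 1 (0 : F) 0 = 1 := by
  unfold Psi
  simp only [Fin.sum_univ_two, Matrix.one_apply_eq, zero_smul, add_zero, mul_one]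
  rw [Matrix.one_apply_ne (by decide), Matrix.one_apply_ne (by decide), h.zero, zero_mul, zero_mul, add_zero, zero_add,
    h.one_E, h.one_E, h.E_sum]
  abel

theorem Psi_upper (h : KData F N₁ N₂ ρ α) (c : F) :
    Psi N₁ N₂ ρ α !![1, algebraMap F k c; 0, 1] c 0 = 1 + c • N₁ := by
  unfold Psi
  simp only [Fin.sum_univ_two, Matrix.of_apply, Matrix.cons_val', Matrix.cons_val_zero, Matrix.cons_val_one,
    Matrix.cons_val_fin_one, zero_smul, add_zero, h.zero, zero_mul, zero_add]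
  rw [h.one_E, h.one_E]
  have h1 : ρ (algebraMap F k c) * E N₁ N₂ ρ α 0 1 = c • (ρ 1 * N₁) := by
    show ρ (algebraMap F k c) * (ρ 1 * N₁) = _
    rw [← mul_one (algebraMap F k c), h.alg, smul_mul_assoc, ← mul_assoc, h.one_mul']
  rw [h1, sub_mul, one_mul, mul_add, mul_one, mul_smul_comm, ← h.E_sum]
  abel

theorem Psi_lower (h : KData F N₁ N₂ ρ α) (c : F) :
    Psi N₁ N₂ ρ α !![1, 0; algebraMap F k c * α, 1] 0 c = 1 + c • N₂ := by
  unfold Psi
  simp only [Fin.sum_univ_two, Matrix.of_apply, Matrix.cons_val', Matrix.cons_val_zero, Matrix.cons_val_one,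
    Matrix.cons_val_fin_one, zero_smul, add_zero, h.zero, zero_mul]
  rw [h.one_E, h.one_E]
  have h1 : ρ (algebraMap F k c * α) * E N₁ N₂ ρ α 1 0 = c • (ρ 1 * N₂) := by
    show ρ (algebraMap F k c * α) * (ρ α⁻¹ * N₂) = _
    rw [h.alg, smul_mul_assoc, ← mul_assoc, ← h.mul, mul_inv_cancel₀ h.a0]
  rw [h1, sub_mul, one_mul, mul_add, mul_one, mul_smul_comm, ← h.E_sum]
  abel

/-- The elements of `SL₂(F(α))` come from elements of `M`. -/
theorem exists_Psi {M : Subgroup Aˣ} {S : Set A} (hS : RootSet F M S) (h : KData F N₁ N₂ ρ α) (h1 : N₁ ∈ S)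
    (h2 : N₂ ∈ S) (hk2 : ringChar F ≠ 2) (hk3 : Nat.card F ≠ 3) (hα : IsAlgebraic F α)
    (g : Matrix.SpecialLinearGroup (Fin 2) k)
    (hg : ∀ i j : Fin 2, (g : Matrix (Fin 2) (Fin 2) k) i j ∈ IntermediateField.adjoin F ({α} : Set k)) :
    ∃ m ∈ M, ∃ x y : F, (m : A) = Psi N₁ N₂ ρ α (g : Matrix (Fin 2) (Fin 2) k) x y := by
  have key := Cfsg.Agent.S5060.result hk2 hk3 α hα h.a0
  have hg' : g ∈ Subgroup.closure ({g : Matrix.SpecialLinearGroup (Fin 2) k | ∃ c : F, (g : Matrix (Fin 2) (Fin 2) k) = !![1, algebraMap F k c; 0, 1]} ∪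
        {g : Matrix.SpecialLinearGroup (Fin 2) k | ∃ c : F, (g : Matrix (Fin 2) (Fin 2) k) = !![1, 0; algebraMap F k c * α, 1]}) := by
    have : g ∈ ((Subgroup.closure ({g : Matrix.SpecialLinearGroup (Fin 2) k | ∃ c : F, (g : Matrix (Fin 2) (Fin 2) k) = !![1, algebraMap F k c; 0, 1]} ∪
        {g : Matrix.SpecialLinearGroup (Fin 2) k | ∃ c : F, (g : Matrix (Fin 2) (Fin 2) k) = !![1, 0; algebraMap F k c * α, 1]}) : Subgroup _) : Set _) := by
      rw [key]; exact hg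
    exact this
  clear hg key
  induction hg' using Subgroup.closure_induction with
  | mem g hg =>
    rcases hg with ⟨c, hc⟩ | ⟨c, hc⟩
    · refine ⟨_, hS.unip_mem h1 c, c, 0, ?_⟩
      rw [hc, h.Psi_upper]
      rfl
    · refine ⟨_, hS.unip_mem h2 c, 0, c, ?_⟩
      rw [hc, h.Psi_lower]
      rfl
  | one => exact ⟨1, M.one_mem, 0, 0, by rw [Matrix.SpecialLinearGroup.coe_one, h.Psi_one]; rfl⟩
  | mul g g' _ _ ih ih' =>
    obtain ⟨m, hm, x, y, e⟩ := ih
    obtain ⟨m', hm', x', y', e'⟩ := ih'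
    exact ⟨m * m', M.mul_mem hm hm', x + x', y + y', by
      rw [Units.val_mul, e, e', h.Psi_mul, Matrix.SpecialLinearGroup.coe_mul]⟩
  | inv g _ ih =>
    obtain ⟨m, hm, x, y, e⟩ := ih
    refine ⟨m⁻¹, M.inv_mem hm, -x, -y, ?_⟩
    have e2 : (m : A) * Psi N₁ N₂ ρ α ((g⁻¹ : Matrix.SpecialLinearGroup (Fin 2) k) : Matrix (Fin 2) (Fin 2) k) (-x) (-y) = 1 := by
      rw [e, h.Psi_mul, ← Matrix.SpecialLinearGroup.coe_mul, mul_inv_cancel, Matrix.SpecialLinearGroup.coe_one,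
        add_neg_cancel, add_neg_cancel, h.Psi_one]
    calc ((m⁻¹ : Aˣ) : A) = ((m⁻¹ : Aˣ) : A) * ((m : A) * Psi N₁ N₂ ρ α ((g⁻¹ : Matrix.SpecialLinearGroup (Fin 2) k) : Matrix (Fin 2) (Fin 2) k) (-x) (-y)) := by
          rw [e2, mul_one]
      _ = _ := by rw [← mul_assoc, Units.inv_mul, one_mul]

/-- The conjugate of `N₁` under the torus. -/
theorem torus_conj (h : KData F N₁ N₂ ρ α) {m : Aˣ} {t : k} (ht : t ≠ 0) {x y : F}
    (hm : (m : A) = Psi N₁ N₂ ρ α !![t, 0; 0, t⁻¹] x y) :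
    (m : A) * N₁ * ((m⁻¹ : Aˣ) : A) = (ρ (t * t) + (1 - ρ 1)) * N₁ := by
  have e01 : ρ 1 * N₁ = E N₁ N₂ ρ α 0 1 := rfl
  have hP : Psi N₁ N₂ ρ α !![t, 0; 0, t⁻¹] x y =
      ρ t * E N₁ N₂ ρ α 0 0 + ρ t⁻¹ * E N₁ N₂ ρ α 1 1 + (1 - ρ 1) * (1 + x • N₁ + y • N₂) := by
    unfold Psi
    simp only [Fin.sum_univ_two, Matrix.of_apply, Matrix.cons_val', Matrix.cons_val_zero, Matrix.cons_val_one,
      Matrix.cons_val_fin_one, add_zero, h.zero, zero_mul, zero_add]
  have hN : N₁ = E N₁ N₂ ρ α 0 1 + (1 - ρ 1) * N₁ := by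
    rw [← e01, sub_mul, one_mul]; abel
  have hone : ∀ x : k, ρ x * (1 - ρ 1) = 0 := fun x => by rw [mul_sub, mul_one, h.mul_one', sub_self]
  have htail1 : (1 - ρ 1) * (1 + x • N₁ + y • N₂) * N₁ = (1 - ρ 1) * N₁ := by
    rw [mul_assoc, add_mul, add_mul, one_mul, smul_mul_assoc, h.s1, smul_zero, add_zero, mul_add, smul_mul_assoc,
      mul_smul_comm, h.z2, smul_zero, add_zero]
  have htail2 : N₁ * ((1 - ρ 1) * (1 + x • N₁ + y • N₂)) = (1 - ρ 1) * N₁ := by
    have e1 : N₁ * (1 - ρ 1) = (1 - ρ 1) * N₁ := by rw [mul_sub, sub_mul, mul_one, one_mul, h.c1]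
    have e2 : N₁ * (1 + x • N₁ + y • N₂) = N₁ + y • (N₁ * N₂) := by
      rw [mul_add, mul_add, mul_one, mul_smul_comm, h.s1, smul_zero, add_zero, mul_smul_comm]
    rw [← mul_assoc, e1, mul_assoc, e2, mul_add, mul_smul_comm, h.z1, smul_zero, add_zero]
  have hE1 : ∀ s : k, ρ s * E N₁ N₂ ρ α 0 1 = ρ s * N₁ := fun s => by
    rw [← e01, ← mul_assoc, h.mul_one']
  have h1 : (m : A) * N₁ = (ρ t + (1 - ρ 1)) * N₁ := by
    rw [hm, hP, add_mul, htail1, add_mul]
    congr 1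
    have hN' : ∀ i j, E N₁ N₂ ρ α i j * N₁ = E N₁ N₂ ρ α i j * E N₁ N₂ ρ α 0 1 := by
      intro i j
      rw [← e01, ← mul_assoc, ← h.E_comm, h.one_E]
    rw [add_mul, mul_assoc, mul_assoc, hN', hN', h.E_mul, h.E_mul, if_pos rfl, if_neg (by decide), mul_zero, add_zero,
      hE1]
  have h2 : N₁ * (m : A) = (ρ t⁻¹ + (1 - ρ 1)) * N₁ := by
    rw [hm, hP, mul_add, htail2, add_mul]
    congr 1
    have hN' : ∀ i j, N₁ * E N₁ N₂ ρ α i j = E N₁ N₂ ρ α 0 1 * E N₁ N₂ ρ α i j := by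
      intro i j
      rw [← e01, h.c1, mul_assoc, h.one_E]
    rw [mul_add, ← mul_assoc, ← h.c1, mul_assoc, ← mul_assoc N₁, ← h.c1, mul_assoc (ρ t⁻¹), hN', hN', h.E_mul, h.E_mul,
      if_neg (by decide), if_pos rfl, mul_zero, zero_add, hE1]
  have h3 : (ρ t + (1 - ρ 1)) * (N₁ * (m : A)) = N₁ := by
    rw [h2, ← mul_assoc]
    have e1 : (ρ t + (1 - ρ 1)) * (ρ t⁻¹ + (1 - ρ 1)) = 1 := by
      have e2 : (1 - ρ 1) * (1 - ρ 1) = 1 - ρ 1 := by
        have e3 := h.mul_one' 1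
        simp only [mul_sub, sub_mul, mul_one, one_mul, e3]
        abel
      have e4 : (1 - ρ 1) * ρ t⁻¹ = 0 := by rw [sub_mul, one_mul, h.one_mul', sub_self]
      rw [add_mul, mul_add, mul_add, hone, e2, e4, ← h.mul, mul_inv_cancel₀ ht]
      abel
    rw [e1, one_mul]
  have h4 : N₁ * ((m⁻¹ : Aˣ) : A) = (ρ t + (1 - ρ 1)) * N₁ := by
    calc N₁ * ((m⁻¹ : Aˣ) : A) = (ρ t + (1 - ρ 1)) * (N₁ * (m : A)) * ((m⁻¹ : Aˣ) : A) := by rw [h3]
      _ = _ := by rw [mul_assoc, mul_assoc N₁, Units.mul_inv, mul_one]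
  rw [h1, mul_assoc, h4, ← mul_assoc]
  congr 1
  have e2 : (1 - ρ 1) * (1 - ρ 1) = 1 - ρ 1 := by
    have e3 := h.mul_one' 1
    simp only [mul_sub, sub_mul, mul_one, one_mul, e3]
    abel
  have e4 : (1 - ρ 1) * ρ t = 0 := by rw [sub_mul, one_mul, h.one_mul', sub_self]
  rw [add_mul, mul_add, mul_add, hone, e2, e4, ← h.mul]
  abel

end KData

end Cfsg.Agent.H914.RootPair
end

-- part: H914/RootPair3
section
/-!
# Pairs of root elements, III: the anticommutator is a scalar (helper914)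
-/

set_option autoImplicit false
set_option linter.unusedSectionVars false

open Polynomial

namespace Cfsg.Agent.H914.RootPair

variable {F : Type*} [Field F] {A : Type*} [Ring A] [Algebra F A] {k : Type*} [Field k] [Algebra F k]
variable {M : Subgroup Aˣ} {S : Set A} {N₁ N₂ : A} {ρ : k → A} {α : k}

/-- The squares of the elements of `F(α)` lie in `F`. -/
theorem RootSet.sq_mem (hS : RootSet F M S) (h : KData F N₁ N₂ ρ α) (h1 : N₁ ∈ S) (h2 : N₂ ∈ S) (he : ρ 1 ≠ 0)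
    (hk2 : ringChar F ≠ 2) (hk3 : Nat.card F ≠ 3) (hα : IsAlgebraic F α) {t : k} (ht0 : t ≠ 0)
    (ht : t ∈ IntermediateField.adjoin F ({α} : Set k)) :
    ∃ μ : F, t * t = algebraMap F k μ ∧ (1 - ρ 1) * N₁ = μ • ((1 - ρ 1) * N₁) := by
  have hdet : (!![t, 0; 0, t⁻¹] : Matrix (Fin 2) (Fin 2) k).det = 1 := by
    rw [Matrix.det_fin_two_of, mul_inv_cancel₀ ht0]
    ring
  obtain ⟨m, hm, x, y, hmE⟩ := h.exists_Psi hS h1 h2 hk2 hk3 hα ⟨!![t, 0; 0, t⁻¹], hdet⟩ (by
    intro i j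
    fin_cases i <;> fin_cases j
    · exact ht
    · exact zero_mem _
    · exact zero_mem _
    · exact inv_mem ht)
  have hconj := hS.conj m hm N₁ h1
  rw [h.torus_conj ht0 hmE] at hconj
  have hcN : (ρ (t * t) + (1 - ρ 1)) * N₁ = N₁ * (ρ (t * t) + (1 - ρ 1)) := by
    rw [add_mul, mul_add, sub_mul, mul_sub, one_mul, mul_one, h.c1, h.c1]
  obtain ⟨μ, hμ⟩ := hS.comm N₁ h1 _ hconj (by
    rw [← mul_assoc, ← hcN])
  have hone : ρ 1 * (1 - ρ 1) = 0 := by rw [mul_sub, mul_one, h.mul_one', sub_self]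
  have hone' : (1 - ρ 1) * (1 - ρ 1) = 1 - ρ 1 := by
    have e3 := h.mul_one' 1
    simp only [mul_sub, sub_mul, mul_one, one_mul, e3]
    abel
  have hone'' : (1 - ρ 1) * ρ (t * t) = 0 := by rw [sub_mul, one_mul, h.one_mul', sub_self]
  refine ⟨μ, ?_, ?_⟩
  · by_contra hne
    have hne' : t * t - algebraMap F k μ ≠ 0 := sub_ne_zero.mpr hne
    have e1 : ρ (t * t) * N₁ = μ • (ρ 1 * N₁) := by
      have e2 : ρ 1 * ((ρ (t * t) + (1 - ρ 1)) * N₁) = ρ 1 * (μ • N₁) := by rw [hμ]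
      rw [← mul_assoc, mul_add, hone, add_zero, h.one_mul', mul_smul_comm] at e2
      exact e2
    have e2 : ρ (t * t - algebraMap F k μ) * N₁ = 0 := by
      have e3 : ρ (t * t) = ρ (t * t - algebraMap F k μ) + μ • ρ 1 := by
        rw [← h.alg, ← h.add, mul_one, sub_add_cancel]
      rw [e3, add_mul, smul_mul_assoc] at e1
      exact add_eq_right.mp e1
    have e3 : ρ 1 * N₁ = 0 := by
      have e4 : ρ 1 = ρ (t * t - algebraMap F k μ)⁻¹ * ρ (t * t - algebraMap F k μ) := by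
        rw [← h.mul, inv_mul_cancel₀ hne']
      rw [e4, mul_assoc, e2, mul_zero]
    apply he
    have e5 : ρ α = 0 := by
      rw [h.a, add_mul, mul_assoc, ← h.c2, ← mul_assoc, ← h.c1, e3, zero_mul, mul_assoc, ← h.c1, e3, mul_zero, add_zero]
    have e6 : ρ 1 = ρ α⁻¹ * ρ α := by rw [← h.mul, inv_mul_cancel₀ h.a0]
    rw [e6, e5, mul_zero]
  · have e2 : (1 - ρ 1) * ((ρ (t * t) + (1 - ρ 1)) * N₁) = (1 - ρ 1) * (μ • N₁) := by rw [hμ]
    rw [← mul_assoc, mul_add, hone', hone'', zero_add, mul_smul_comm] at e2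
    exact e2

theorem RootSet.idem_eq_one (hS : RootSet F M S) (h : KData F N₁ N₂ ρ α) (h1 : N₁ ∈ S) (h2 : N₂ ∈ S) (he : ρ 1 ≠ 0)
    (hk2 : ringChar F ≠ 2) (hk3 : Nat.card F ≠ 3) (hα : IsAlgebraic F α) (ht : ∃ t : F, t ≠ 0 ∧ t * t ≠ 1) :
    ρ 1 = 1 := by
  obtain ⟨t, ht0, ht1⟩ := ht
  have hinj := (algebraMap F k).injective
  obtain ⟨μ, hμ, hμ'⟩ := hS.sq_mem h h1 h2 he hk2 hk3 hα (t := algebraMap F k t) (by
    rw [Ne, map_eq_zero]; exact ht0) (IntermediateField.algebraMap_mem _ t)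
  rw [← map_mul] at hμ
  have hμt := hinj hμ
  have e1 : (1 - μ) • ((1 - ρ 1) * N₁) = 0 := by rw [sub_smul, one_smul, ← hμ', sub_self]
  have e2 : (1 - ρ 1) * N₁ = 0 := by
    refine (smul_eq_zero.mp e1).resolve_left ?_
    rw [← hμt]
    exact fun h => ht1 (sub_eq_zero.mp h).symm
  exact hS.ker N₁ h1 _ (h.mul_one' 1) (h.c1 1) e2

theorem RootSet.scalar_of (hS : RootSet F M S) (h : KData F N₁ N₂ ρ α) (h1 : N₁ ∈ S) (h2 : N₂ ∈ S) (he : ρ 1 ≠ 0)
    (hk2 : ringChar F ≠ 2) (hk3 : Nat.card F ≠ 3) (hα : IsAlgebraic F α) :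
    ∃ c : F, c ≠ 0 ∧ α = algebraMap F k c := by
  have h20 : (2 : F) ≠ 0 := Ring.two_ne_zero hk2
  suffices hs : ∃ c : F, α = algebraMap F k c by
    obtain ⟨c, hc⟩ := hs
    refine ⟨c, ?_, hc⟩
    rintro rfl
    rw [map_zero] at hc
    exact h.a0 hc
  have hmem : α ∈ IntermediateField.adjoin F ({α} : Set k) := IntermediateField.mem_adjoin_simple_self F α
  obtain ⟨μ, hμ, -⟩ := hS.sq_mem h h1 h2 he hk2 hk3 hα h.a0 hmem
  by_cases hα1 : α + 1 = 0
  · exact ⟨-1, by rw [map_neg, map_one]; exact eq_neg_of_add_eq_zero_left hα1⟩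
  · obtain ⟨μ', hμ', -⟩ := hS.sq_mem h h1 h2 he hk2 hk3 hα hα1 (add_mem hmem (one_mem _))
    refine ⟨(μ' - μ - 1) / 2, ?_⟩
    have h2k : algebraMap F k 2 ≠ 0 := by rw [Ne, map_eq_zero]; exact h20
    rw [map_div₀, eq_div_iff h2k, map_sub, map_sub, ← hμ, ← hμ', map_one, map_ofNat]
    ring

/-- The data before the normalisation. -/
structure Pre (F : Type*) [Field F] {A : Type*} [Ring A] [Algebra F A] {k : Type*} [Field k] [Algebra F k]
    (N₁ N₂ : A) (ρ : k → A) (α : k) : Prop where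
  s1 : N₁ * N₁ = 0
  s2 : N₂ * N₂ = 0
  add : ∀ x y, ρ (x + y) = ρ x + ρ y
  mul : ∀ x y, ρ (x * y) = ρ x * ρ y
  alg : ∀ (c : F) x, ρ (algebraMap F k c * x) = c • ρ x
  c1 : ∀ x, ρ x * N₁ = N₁ * ρ x
  c2 : ∀ x, ρ x * N₂ = N₂ * ρ x
  a : ρ α = (N₁ * N₂ + N₂ * N₁) * ρ 1
  a0 : α ≠ 0

theorem Pre.neg (h : Pre F N₁ N₂ ρ α) (x : k) : ρ (-x) = -ρ x := by
  have h1 := h.add x (-x)
  have h0 := h.add 0 0
  rw [add_zero] at h0
  have h0' := left_eq_add.mp h0
  rw [add_neg_cancel, h0'] at h1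
  exact (neg_eq_of_add_eq_zero_right h1.symm).symm

theorem Pre.cZ (h : Pre F N₁ N₂ ρ α) (x : k) : ρ x * (N₁ * N₂ + N₂ * N₁) = (N₁ * N₂ + N₂ * N₁) * ρ x := by
  rw [mul_add, add_mul, ← mul_assoc, h.c1, mul_assoc, h.c2, ← mul_assoc, ← mul_assoc, h.c2, mul_assoc N₂, h.c1,
    ← mul_assoc]

/-- The conjugated pair. -/
theorem Pre.step (h : Pre F N₁ N₂ ρ α) :
    Pre F N₂ ((1 + (1 : F) • N₁) * N₂ * (1 - (1 : F) • N₁)) ρ (-(α * α)) where
  s1 := h.s2
  s2 := by
    rw [one_smul]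
    have e : (1 - N₁) * (1 + N₁) = 1 := by
      rw [sub_mul, one_mul, mul_add, mul_one, h.s1]
      abel
    calc _ = (1 + N₁) * N₂ * ((1 - N₁) * (1 + N₁)) * N₂ * (1 - N₁) := by simp only [mul_assoc]
      _ = 0 := by rw [e, mul_one, mul_assoc (1 + N₁) N₂ N₂, h.s2, mul_zero, zero_mul]
  add := h.add
  mul := h.mul
  alg := h.alg
  c1 := h.c2
  c2 := fun x => by
    rw [one_smul]
    have e1 : Commute (ρ x) N₁ := h.c1 x
    have e2 : Commute (ρ x) N₂ := h.c2 x
    exact (((Commute.one_right _).add_right e1).mul_right e2).mul_right ((Commute.one_right _).sub_right e1)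
  a := by
    have e := anticomm_conj' (F := F) h.s1 h.s2 1
    rw [e, one_pow, one_smul, h.neg, h.mul, h.a, neg_mul]
    congr 1
    have e2 : ρ 1 * ρ 1 = ρ 1 := by rw [← h.mul, mul_one]
    calc (N₁ * N₂ + N₂ * N₁) * ρ 1 * ((N₁ * N₂ + N₂ * N₁) * ρ 1)
        = (N₁ * N₂ + N₂ * N₁) * (ρ 1 * (N₁ * N₂ + N₂ * N₁)) * ρ 1 := by simp only [mul_assoc]
      _ = _ := by rw [h.cZ]; simp only [mul_assoc]; rw [e2]
  a0 := neg_ne_zero.mpr (mul_ne_zero h.a0 h.a0)

theorem RootSet.idem_eq_one' (hS : RootSet F M S) (hk2 : ringChar F ≠ 2) (hk3 : Nat.card F ≠ 3)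
    (ht : ∃ t : F, t ≠ 0 ∧ t * t ≠ 1) (he : ρ 1 ≠ 0) (halg : ∀ x : k, IsAlgebraic F x) (j : ℕ) :
    ∀ N₁ ∈ S, ∀ N₂ ∈ S, ∀ α : k, Pre F N₁ N₂ ρ α → (1 - ρ 1) * (N₁ * N₂ + N₂ * N₁) ^ (2 ^ j) = 0 → ρ 1 = 1 := by
  induction j with
  | zero =>
    intro N₁ h1 N₂ h2 α h hZ
    rw [pow_zero, pow_one] at hZ
    have hmem := hS.conj_mem h1 h2 1
    have h' := h.step
    have e212 : N₂ * N₁ * N₂ = (N₁ * N₂ + N₂ * N₁) * N₂ := by
      rw [add_mul, mul_assoc N₁ N₂ N₂, h.s2, mul_zero, zero_add]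
    have hcN : (1 - ρ 1) * N₁ = N₁ * (1 - ρ 1) := by rw [sub_mul, mul_sub, one_mul, mul_one, h.c1]
    have hK : KData F N₂ ((1 + (1 : F) • N₁) * N₂ * (1 - (1 : F) • N₁)) ρ (-(α * α)) :=
      { s1 := h'.s1, s2 := h'.s2, add := h'.add, mul := h'.mul, alg := h'.alg, c1 := h'.c1, c2 := h'.c2, a := h'.a,
        a0 := h'.a0
        z1 := by
          have e1 : N₂ * ((1 + (1 : F) • N₁) * N₂ * (1 - (1 : F) • N₁)) = (N₁ * N₂ + N₂ * N₁) * (N₂ * (1 - N₁)) := by
            rw [one_smul, ← mul_assoc, ← mul_assoc, mul_add, mul_one, add_mul, h.s2, zero_add, e212, mul_assoc]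
          rw [e1, ← mul_assoc, hZ, zero_mul]
        z2 := by
          have e1 : (1 + (1 : F) • N₁) * N₂ * (1 - (1 : F) • N₁) * N₂ = -((1 + N₁) * ((N₁ * N₂ + N₂ * N₁) * N₂)) := by
            rw [one_smul, mul_assoc, sub_mul, one_mul, mul_sub, mul_assoc (1 + N₁) N₂ N₂, h.s2, mul_zero, zero_sub,
              mul_assoc, ← mul_assoc N₂, e212]
          have hc : (1 - ρ 1) * (1 + N₁) = (1 + N₁) * (1 - ρ 1) := by
            rw [mul_add, add_mul, mul_one, one_mul, hcN]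
          rw [e1, mul_neg, ← mul_assoc, hc, mul_assoc, ← mul_assoc (1 - ρ 1), hZ, zero_mul, mul_zero, neg_zero] }
    exact hS.idem_eq_one hK h2 hmem he hk2 hk3 (halg _) ht
  | succ j ih =>
    intro N₁ h1 N₂ h2 α h hZ
    have hmem := hS.conj_mem h1 h2 1
    refine ih N₂ h2 _ hmem _ h.step ?_
    rw [anticomm_conj' h.s1 h.s2, one_pow, one_smul, neg_pow, ← pow_two, ← pow_mul, ← pow_succ']
    have hc : (1 - ρ 1) * (-1) ^ (2 ^ j) = (-1) ^ (2 ^ j) * (1 - ρ 1) :=
      (Commute.pow_right (Commute.neg_one_right _) _)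
    rw [← mul_assoc, hc, mul_assoc, hZ, mul_zero]

/-- `(L2)` in terms of the representation. -/
theorem RootSet.scalar_of_pre (hS : RootSet F M S) (hk2 : ringChar F ≠ 2) (hk3 : Nat.card F ≠ 3)
    (ht : ∃ t : F, t ≠ 0 ∧ t * t ≠ 1) (halg : ∀ x : k, IsAlgebraic F x) (h1 : N₁ ∈ S) (h2 : N₂ ∈ S)
    (h : Pre F N₁ N₂ ρ α) (he : ρ 1 ≠ 0) (j : ℕ) (hj : (1 - ρ 1) * (N₁ * N₂ + N₂ * N₁) ^ (2 ^ j) = 0) :
    ∃ c : F, c ≠ 0 ∧ N₁ * N₂ + N₂ * N₁ = c • 1 := by
  have he1 := hS.idem_eq_one' hk2 hk3 ht he halg j N₁ h1 N₂ h2 α h hj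
  have hK : KData F N₁ N₂ ρ α :=
    { s1 := h.s1, s2 := h.s2, add := h.add, mul := h.mul, alg := h.alg, c1 := h.c1, c2 := h.c2, a := h.a, a0 := h.a0
      z1 := by rw [he1, sub_self, zero_mul]
      z2 := by rw [he1, sub_self, zero_mul] }
  obtain ⟨c, hc0, hc⟩ := hS.scalar_of hK h1 h2 he hk2 hk3 (halg _)
  refine ⟨c, hc0, ?_⟩
  have e := h.a
  rw [he1, mul_one, hc, ← mul_one (algebraMap F k c), h.alg, he1] at e
  exact e.symm

/-- `(L2)`: if the non-nilpotent part of the anticommutator is killed by an irreducible polynomial, the anticommutator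
is a scalar. -/
theorem RootSet.scalar_of_irreducible (hS : RootSet F M S) (hk2 : ringChar F ≠ 2) (hk3 : Nat.card F ≠ 3)
    (ht : ∃ t : F, t ≠ 0 ∧ t * t ≠ 1) (h1 : N₁ ∈ S) (h2 : N₂ ∈ S) (hnp : ¬ ∃ c : F, N₂ = c • N₁) {π : F[X]}
    (hπ : Irreducible π) (hπ0 : π.eval 0 ≠ 0) (j : ℕ)
    (hj : (N₁ * N₂ + N₂ * N₁) ^ j * aeval (N₁ * N₂ + N₂ * N₁) π = 0) :
    ∃ c : F, c ≠ 0 ∧ N₁ * N₂ + N₂ * N₁ = c • 1 := by
  have h20 : (2 : F) ≠ 0 := Ring.two_ne_zero hk2
  have : Fact (Irreducible π) := ⟨hπ⟩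
  set Z := N₁ * N₂ + N₂ * N₁ with hZ
  have s1 := hS.sq _ h1
  have s2 := hS.sq _ h2
  have hXnd : ¬ π ∣ X := by
    rintro ⟨c, hc⟩
    have hc0 : c.eval 0 = 0 := by
      have := congrArg (eval 0) hc
      rw [eval_X, eval_mul] at this
      exact (mul_eq_zero.mp this.symm).resolve_left hπ0
    have hXc : X ∣ c := by rw [X_dvd_iff, coeff_zero_eq_eval_zero]; exact hc0
    obtain ⟨c', rfl⟩ := hXc
    have : π * c' = 1 := by
      have h3 : (X : F[X]) * (π * c') = X * 1 := by rw [mul_one]; nth_rewrite 2 [hc]; ring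
      exact mul_left_cancel₀ X_ne_zero h3
    exact hπ.not_isUnit (IsUnit.of_mul_eq_one _ this)
  have hcop : IsCoprime (X ^ j : F[X]) π := by
    apply IsCoprime.pow_left
    exact ((Irreducible.coprime_iff_not_dvd hπ).mpr hXnd).symm
  obtain ⟨a, b, hab⟩ := hcop
  have hjp : aeval Z (X ^ j * π) = 0 := by rw [map_mul, map_pow, aeval_X]; exact hj
  set e := aeval Z (a * X ^ j) with he
  have hee : e = 1 - aeval Z (b * π) := by
    rw [he, eq_sub_iff_add_eq, ← map_add, hab, map_one]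
  have hpe : ∀ f : F[X], π ∣ f → aeval Z f * e = 0 := by
    rintro f ⟨c, rfl⟩
    rw [he, ← map_mul]
    have : π * c * (a * X ^ j) = (X ^ j * π) * (c * a) := by ring
    rw [this, map_mul, hjp, zero_mul]
  have hce : ∀ f : F[X], aeval Z f * e = e * aeval Z f := by
    intro f
    rw [he, ← map_mul, ← map_mul, mul_comm]
  have he2 : e * e = e := by
    nth_rewrite 1 [hee]
    rw [sub_mul, one_mul, hpe _ (Dvd.intro_left _ rfl), sub_zero]
  -- the representation
  let rep : AdjoinRoot π → F[X] := Function.surjInv (AdjoinRoot.mk_surjective (g := π))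
  have hrep : ∀ x, AdjoinRoot.mk π (rep x) = x := Function.surjInv_eq _
  let ρ : AdjoinRoot π → A := fun x => aeval Z (rep x) * e
  have hρ : ∀ f : F[X], ρ (AdjoinRoot.mk π f) = aeval Z f * e := by
    intro f
    have h3 : π ∣ rep (AdjoinRoot.mk π f) - f := by
      rw [← AdjoinRoot.mk_eq_mk, hrep]
    have h4 := hpe _ h3
    rw [map_sub, sub_mul, sub_eq_zero] at h4
    exact h4
  have hρ1 : ρ 1 = e := by
    have := hρ 1
    rw [map_one, map_one, one_mul] at this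
    exact this
  have hZN1 : Commute Z N₁ := Z_comm_left s1
  have hZN2 : Commute Z N₂ := Z_comm_right s2
  have hcomm : ∀ (N : A), Commute Z N → ∀ f : F[X], Commute (aeval Z f) N := by
    intro N hN f
    induction f using Polynomial.induction_on' with
    | add p q hp hq => rw [map_add]; exact hp.add_left hq
    | monomial n c =>
      rw [aeval_monomial]
      exact (show Commute (algebraMap F A c) N from Algebra.commutes c N).mul_left (hN.pow_left n)
  have hpre : Pre F N₁ N₂ ρ (AdjoinRoot.root π) :=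
    { s1 := s1
      s2 := s2
      add := by
        intro x y
        obtain ⟨f, rfl⟩ := AdjoinRoot.mk_surjective x
        obtain ⟨g, rfl⟩ := AdjoinRoot.mk_surjective y
        rw [← map_add, hρ, hρ, hρ, map_add, add_mul]
      mul := by
        intro x y
        obtain ⟨f, rfl⟩ := AdjoinRoot.mk_surjective x
        obtain ⟨g, rfl⟩ := AdjoinRoot.mk_surjective y
        rw [← map_mul, hρ, hρ, hρ, map_mul, mul_assoc (aeval Z f) e, ← mul_assoc e, ← hce, mul_assoc (aeval Z g), he2,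
          mul_assoc]
      alg := by
        intro c x
        obtain ⟨f, rfl⟩ := AdjoinRoot.mk_surjective x
        have : algebraMap F (AdjoinRoot π) c * AdjoinRoot.mk π f = AdjoinRoot.mk π (C c * f) := by
          rw [map_mul]; rfl
        rw [this, hρ, hρ, map_mul, aeval_C, Algebra.smul_def, mul_assoc]
      c1 := by
        intro x
        obtain ⟨f, rfl⟩ := AdjoinRoot.mk_surjective x
        rw [hρ]
        exact (hcomm _ hZN1 f).mul_left (hcomm _ hZN1 _)
      c2 := by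
        intro x
        obtain ⟨f, rfl⟩ := AdjoinRoot.mk_surjective x
        rw [hρ]
        exact (hcomm _ hZN2 f).mul_left (hcomm _ hZN2 _)
      a := by
        rw [hρ1, ← AdjoinRoot.mk_X, hρ, aeval_X]
      a0 := by
        rw [← AdjoinRoot.mk_X, Ne, AdjoinRoot.mk_eq_zero]
        exact hXnd }
  have hZj : (1 - e) * Z ^ j = 0 := by
    have : (1 - e) = aeval Z (b * π) := by rw [hee]; abel
    rw [this]
    have h3 : Z ^ j = aeval Z (X ^ j : F[X]) := by rw [map_pow, aeval_X]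
    rw [h3, ← map_mul]
    have h4 : b * π * X ^ j = b * (X ^ j * π) := by ring
    rw [h4, map_mul, hjp, mul_zero]
  have he0 : e ≠ 0 := by
    intro h0
    rw [h0, sub_zero, one_mul] at hZj
    exact hnp (hS.prop_of_isNilpotent h20 h1 h2 ⟨j, hZj⟩)
  have : FiniteDimensional F (AdjoinRoot π) := (AdjoinRoot.powerBasis hπ.ne_zero).finite
  refine hS.scalar_of_pre hk2 hk3 ht (fun x => Algebra.IsAlgebraic.isAlgebraic x) h1 h2 hpre (by rw [hρ1]; exact he0) j ?_
  rw [hρ1]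
  obtain ⟨k, hk⟩ := Nat.exists_eq_add_of_le (Nat.lt_two_pow_self (n := j)).le
  rw [hk, pow_add, ← mul_assoc, hZj, zero_mul]

end Cfsg.Agent.H914.RootPair
end

-- part: H914/RootPair4
section
/-!
# Pairs of root elements, IV: the main result (helper914)
-/

set_option autoImplicit false
set_option linter.unusedSectionVars false

open Polynomial

namespace Cfsg.Agent.H914.RootPair

variable {F : Type*} [Field F] {A : Type*} [Ring A] [Algebra F A]
variable {M : Subgroup Aˣ} {S : Set A} {N₁ N₂ : A}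

set_option maxHeartbeats 1000000 in
/-- The anticommutator of the two conjugates. -/
theorem anticomm_third (s1 : N₁ * N₁ = 0) (s2 : N₂ * N₂ = 0) (a : F) :
    ((1 + a • N₁) * N₂ * (1 - a • N₁)) * ((1 + (1 : F) • N₂) * N₁ * (1 - (1 : F) • N₂)) +
      ((1 + (1 : F) • N₂) * N₁ * (1 - (1 : F) • N₂)) * ((1 + a • N₁) * N₂ * (1 - a • N₁)) =
      (N₁ * N₂ + N₂ * N₁) * ((1 - a • (N₁ * N₂ + N₂ * N₁)) * (1 - a • (N₁ * N₂ + N₂ * N₁))) := by
  have t1 : ∀ x, N₁ * (N₁ * x) = 0 := fun x => by rw [← mul_assoc, s1, zero_mul]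
  have t2 : ∀ x, N₂ * (N₂ * x) = 0 := fun x => by rw [← mul_assoc, s2, zero_mul]
  simp only [mul_add, add_mul, mul_sub, sub_mul, mul_assoc, mul_one, one_mul, smul_mul_assoc, mul_smul_comm, t1, t2,
    s1, s2, mul_zero, zero_mul, smul_zero, one_smul]
  module

/-- A polynomial is a power of `X` times a polynomial with non-zero constant coefficient. -/
theorem exists_X_pow_mul {p : F[X]} (hp : p ≠ 0) :
    ∃ (i : ℕ) (g : F[X]), p = X ^ i * g ∧ g.eval 0 ≠ 0 ∧ g.natDegree ≤ p.natDegree := by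
  obtain ⟨g, hg, hg0⟩ := Polynomial.exists_eq_pow_rootMultiplicity_mul_and_not_dvd p hp 0
  rw [C_0, sub_zero] at hg hg0
  refine ⟨_, g, hg, ?_, ?_⟩
  · intro h0
    exact hg0 (by rw [X_dvd_iff, coeff_zero_eq_eval_zero]; exact h0)
  · exact natDegree_le_of_dvd ⟨_, by rw [mul_comm]; exact hg⟩ hp

/-- A polynomial killing `f` modulo `m`, of degree at most `deg m`. -/
theorem exists_killing {m : F[X]} (hm : m ≠ 0) (f : F[X]) :
    ∃ χ : F[X], χ ≠ 0 ∧ χ.natDegree ≤ m.natDegree ∧ m ∣ χ.comp f := by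
  have : Module.Finite F (AdjoinRoot m) := (AdjoinRoot.powerBasis hm).finite
  set T := Algebra.lmul F (AdjoinRoot m) (AdjoinRoot.mk m f) with hT
  refine ⟨T.charpoly, (LinearMap.charpoly_monic T).ne_zero, ?_, ?_⟩
  · rw [LinearMap.charpoly_natDegree, (AdjoinRoot.powerBasis hm).finrank, AdjoinRoot.powerBasis_dim]
  · rw [← AdjoinRoot.mk_eq_zero]
    have h1 : aeval T T.charpoly = 0 := LinearMap.aeval_self_charpoly T
    have h2 : aeval T T.charpoly = Algebra.lmul F (AdjoinRoot m) (aeval (AdjoinRoot.mk m f) T.charpoly) := by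
      rw [hT, aeval_algHom_apply]
    have h3 : aeval (AdjoinRoot.mk m f) T.charpoly = 0 := by
      rw [h2] at h1
      have h4 := congrArg (fun t : Module.End F (AdjoinRoot m) => t 1) h1
      simpa using h4
    have h5 : AdjoinRoot.mk m (T.charpoly.comp f) = aeval (AdjoinRoot.mk m f) T.charpoly := by
      rw [comp_eq_aeval]
      have := Polynomial.aeval_algHom_apply (AdjoinRoot.mkₐ m) f T.charpoly
      exact this.symm
    rw [h5, h3]

/-- The main induction. -/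
theorem RootSet.scalar_of_poly (hS : RootSet F M S) (hk2 : ringChar F ≠ 2) (hk3 : Nat.card F ≠ 3)
    (ht : ∃ t : F, t ≠ 0 ∧ t * t ≠ 1) (d : ℕ) (hd3 : d ≤ 3) :
    ∀ N₁ ∈ S, ∀ N₂ ∈ S, (¬ ∃ c : F, N₂ = c • N₁) → ∀ (j : ℕ) (m : F[X]), m.natDegree ≤ d → m.eval 0 ≠ 0 →
      (N₁ * N₂ + N₂ * N₁) ^ j * aeval (N₁ * N₂ + N₂ * N₁) m = 0 → ∃ c : F, c ≠ 0 ∧ N₁ * N₂ + N₂ * N₁ = c • 1 := by
  have h20 : (2 : F) ≠ 0 := Ring.two_ne_zero hk2
  induction d with
  | zero =>
    intro N₁ h1 N₂ h2 hnp j m hmd hm0 hZ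
    exfalso
    rw [natDegree_eq_zero.mp (Nat.le_zero.mp hmd) |>.choose_spec.symm, eval_C] at hm0
    rw [natDegree_eq_zero.mp (Nat.le_zero.mp hmd) |>.choose_spec.symm, aeval_C, Algebra.algebraMap_eq_smul_one,
      mul_smul_comm, mul_one] at hZ
    exact hnp (hS.prop_of_isNilpotent h20 h1 h2 ⟨j, (smul_eq_zero.mp hZ).resolve_left hm0⟩)
  | succ d ih =>
    intro N₁ h1 N₂ h2 hnp j m hmd hm0 hZ
    have ihd := ih (by omega)
    by_cases hmd' : m.natDegree ≤ d
    · exact ihd N₁ h1 N₂ h2 hnp j m hmd' hm0 hZ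
    have hmdeg : m.natDegree = d + 1 := by omega
    have hmne : m ≠ 0 := by
      rintro rfl
      exact hm0 eval_zero
    by_cases hirr : Irreducible m
    · exact hS.scalar_of_irreducible hk2 hk3 ht h1 h2 hnp hirr hm0 j hZ
    -- `m` has a root
    have hroot : ∃ r : F, m.eval r = 0 := by
      by_contra hno
      push Not at hno
      have hd1 : d ≠ 0 := by
        rintro rfl
        exact hirr (Polynomial.irreducible_of_degree_eq_one (by rw [degree_eq_natDegree hmne, hmdeg]; rfl))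
      apply hirr
      rw [Polynomial.irreducible_iff_roots_eq_zero_of_degree_le_three (by omega) (by omega)]
      rw [Multiset.eq_zero_iff_forall_notMem]
      intro r hr
      exact hno r ((mem_roots hmne).mp hr)
    obtain ⟨r, hr⟩ := hroot
    have hr0 : r ≠ 0 := by
      rintro rfl
      exact hm0 hr
    obtain ⟨m₂, hm2⟩ := dvd_iff_isRoot.mpr hr
    have hm20 : m₂.eval 0 ≠ 0 := by
      intro h0
      apply hm0
      rw [hm2, eval_mul, h0, mul_zero]
    have hm2ne : m₂ ≠ 0 := by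
      rintro rfl
      exact hm20 eval_zero
    have hm2d : m₂.natDegree = d := by
      have := congrArg natDegree hm2
      rw [natDegree_mul (X_sub_C_ne_zero r) hm2ne, natDegree_X_sub_C] at this
      omega
    -- it is enough to show that `Z ^ j * m₂ (Z) = 0`
    set Z := N₁ * N₂ + N₂ * N₁ with hZdef
    by_cases hgoal : ∃ u : A, u * (1 - r⁻¹ • Z) = 1
    · obtain ⟨u, hu⟩ := hgoal
      refine ihd N₁ h1 N₂ h2 hnp j m₂ hm2d.le hm20 ?_
      rw [← hZdef]
      have e1 : aeval Z m = (-r) • ((1 - r⁻¹ • Z) * aeval Z m₂) := by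
        rw [hm2, map_mul, map_sub, aeval_X, aeval_C, Algebra.algebraMap_eq_smul_one, ← smul_mul_assoc]
        congr 1
        rw [smul_sub, smul_smul, neg_mul, mul_inv_cancel₀ hr0]
        module
      rw [e1, mul_smul_comm] at hZ
      have hZ' := (smul_eq_zero.mp hZ).resolve_left (neg_ne_zero.mpr hr0)
      have hc : Commute (Z ^ j) (1 - r⁻¹ • Z) :=
        (Commute.one_right _).sub_right (((Commute.refl Z).pow_left j).smul_right _)
      rw [← mul_assoc, hc.eq, mul_assoc] at hZ'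
      calc Z ^ j * aeval Z m₂ = u * ((1 - r⁻¹ • Z) * (Z ^ j * aeval Z m₂)) := by rw [← mul_assoc, hu, one_mul]
        _ = 0 := by rw [hZ', mul_zero]
    -- the conjugated pair
    have hm1 := hS.conj_mem h1 h2 r⁻¹
    have hm2' := hS.conj_mem h2 h1 1
    have s1 := hS.sq _ h1
    have s2 := hS.sq _ h2
    have hthird := anticomm_third (N₁ := N₁) (N₂ := N₂) s1 s2 r⁻¹
    rw [← hZdef] at hthird
    have ha1 := anticomm_conj (N₂ := N₂) s1 r⁻¹
    have ha2 := anticomm_conj' (N₁ := N₂) (N₂ := N₁) s2 s1 (1 : F)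
    rw [← hZdef] at ha1
    rw [one_pow, add_comm (N₂ * N₁), ← hZdef, one_smul F (Z * Z)] at ha2
    by_cases hprop : ∃ c : F, (1 + (1 : F) • N₂) * N₁ * (1 - (1 : F) • N₂) = c • ((1 + r⁻¹ • N₁) * N₂ * (1 - r⁻¹ • N₁))
    · obtain ⟨c, hc⟩ := hprop
      rw [hc, mul_smul_comm, smul_mul_assoc, ← smul_add, ha1] at ha2
      -- `c Z = - Z²`
      have e1 : Z ^ 1 * aeval Z (X + C c : F[X]) = 0 := by
        rw [pow_one, map_add, aeval_X, aeval_C, Algebra.algebraMap_eq_smul_one, mul_add, mul_smul_comm, mul_one, ha2]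
        abel
      by_cases hc0 : c = 0
      · exfalso
        rw [hc0, C_0, add_zero, aeval_X, pow_one] at e1
        exact hnp (hS.prop_of_isNilpotent h20 h1 h2 ⟨2, by rw [pow_two]; exact e1⟩)
      · exact hS.scalar_of_irreducible hk2 hk3 ht h1 h2 hnp (π := X + C c)
          (by
            have := Polynomial.irreducible_X_sub_C (-c)
            rwa [C_neg, sub_neg_eq_add] at this)
          (by rw [eval_add, eval_X, eval_C, zero_add]; exact hc0) 1 e1
    · -- a polynomial killing `Z'`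
      exfalso
      set f : F[X] := X * ((1 - C r⁻¹ * X) * (1 - C r⁻¹ * X)) with hf
      have hfZ : aeval Z f = Z * ((1 - r⁻¹ • Z) * (1 - r⁻¹ • Z)) := by
        rw [hf, map_mul, map_mul, aeval_X, map_sub, map_one, map_mul, aeval_X, aeval_C, Algebra.algebraMap_eq_smul_one,
          smul_mul_assoc, one_mul]
      obtain ⟨χ, hχ0, hχd, hχ⟩ := exists_killing hm2ne f
      obtain ⟨i, g, hg, hg0, hgd⟩ := exists_X_pow_mul hχ0
      have hkill : (Z * ((1 - r⁻¹ • Z) * (1 - r⁻¹ • Z))) ^ ((j + 1) + i) *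
          aeval (Z * ((1 - r⁻¹ • Z) * (1 - r⁻¹ • Z))) g = 0 := by
        rw [← hfZ]
        have e0 : ∀ p : F[X], aeval Z p ^ (j + 1 + i) * aeval (aeval Z p) g = aeval Z (p ^ (j + 1) * χ.comp p) := by
          intro p
          have e5 : aeval (aeval Z p) g = aeval Z (g.comp p) := by
            rw [comp_eq_aeval]
            exact Polynomial.aeval_algHom_apply (aeval Z) p g
          rw [e5, ← map_pow, ← map_mul, hg, mul_comp, pow_comp, X_comp, pow_add, mul_assoc]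
        have e1 := e0 f
        rw [e1]
        obtain ⟨w, hw⟩ := hχ
        have e2 : f ^ (j + 1) * χ.comp f = (X ^ j * m) * ((-C r⁻¹) * X * (1 - C r⁻¹ * X) * ((1 - C r⁻¹ * X) * (1 - C r⁻¹ * X)) ^ j * w) := by
          have e3 : (X - C r) * (-C r⁻¹) = 1 - C r⁻¹ * X := by
            have : C r * C r⁻¹ = (1 : F[X]) := by rw [← C_mul, mul_inv_cancel₀ hr0, C_1]
            linear_combination this
          rw [hw, hm2, hf]
          have e4 : (X * ((1 - C r⁻¹ * X) * (1 - C r⁻¹ * X))) ^ (j + 1) * (m₂ * w) =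
              X ^ j * X * (((1 - C r⁻¹ * X) * (1 - C r⁻¹ * X)) ^ j * ((1 - C r⁻¹ * X) * (1 - C r⁻¹ * X))) * (m₂ * w) := by
            rw [mul_pow, pow_succ, pow_succ]
          rw [e4]
          nth_rewrite 3 [← e3]
          ring
        rw [e2, map_mul, map_mul (aeval Z) (X ^ j) m, map_pow, aeval_X, hZ, zero_mul]
      have hres := ihd _ hm1 _ hm2' hprop (j + 1 + i) g (by omega) hg0 (by rw [hthird]; exact hkill)
      rw [hthird] at hres
      obtain ⟨c, hc0, hc⟩ := hres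
      apply hgoal
      refine ⟨c⁻¹ • (Z * (1 - r⁻¹ • Z)), ?_⟩
      rw [smul_mul_assoc, mul_assoc, hc, smul_smul, inv_mul_cancel₀ hc0, one_smul]

/-- **Main result**: the anticommutator of two non-proportional elements is a non-zero scalar. -/
theorem RootSet.anticomm_scalar (hS : RootSet F M S) (hk2 : ringChar F ≠ 2) (hk3 : Nat.card F ≠ 3)
    (ht : ∃ t : F, t ≠ 0 ∧ t * t ≠ 1) (h1 : N₁ ∈ S) (h2 : N₂ ∈ S) (hnp : ¬ ∃ c : F, N₂ = c • N₁) :
    ∃ c : F, c ≠ 0 ∧ N₁ * N₂ + N₂ * N₁ = c • 1 := by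
  have s1 := hS.sq _ h1
  have s2 := hS.sq _ h2
  have hZN1 : Commute (N₁ * N₂ + N₂ * N₁) N₁ := Z_comm_left s1
  obtain ⟨χ, hχ0, hχd, hχ⟩ := hS.deg N₁ h1 _ hZN1
  obtain ⟨i, g, hg, hg0, hgd⟩ := exists_X_pow_mul hχ0
  refine hS.scalar_of_poly hk2 hk3 ht 3 le_rfl N₁ h1 N₂ h2 hnp (i + 1) g (by omega) hg0 ?_
  have hcomm : ∀ (N : A), Commute (N₁ * N₂ + N₂ * N₁) N → ∀ f : F[X], Commute (aeval (N₁ * N₂ + N₂ * N₁) f) N := by
    intro N hN f
    induction f using Polynomial.induction_on' with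
    | add p q hp hq => rw [map_add]; exact hp.add_left hq
    | monomial n c =>
      rw [aeval_monomial]
      exact (show Commute (algebraMap F A c) N from Algebra.commutes c N).mul_left (hN.pow_left n)
  have e1 : (N₁ * N₂ + N₂ * N₁) * aeval (N₁ * N₂ + N₂ * N₁) χ = 0 := by
    have h3 : N₁ * aeval (N₁ * N₂ + N₂ * N₁) χ = 0 := by rw [← (hcomm _ hZN1 χ).eq, hχ]
    rw [add_mul, mul_assoc, ← (hcomm N₂ (Z_comm_right s2) χ).eq, ← mul_assoc, h3, zero_mul, mul_assoc, h3, mul_zero,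
      add_zero]
  calc (N₁ * N₂ + N₂ * N₁) ^ (i + 1) * aeval (N₁ * N₂ + N₂ * N₁) g
      = (N₁ * N₂ + N₂ * N₁) * aeval (N₁ * N₂ + N₂ * N₁) χ := by
        rw [hg, map_mul, map_pow, aeval_X, pow_succ', mul_assoc]
    _ = 0 := e1

end Cfsg.Agent.H914.RootPair
end

-- part: H914/SymOps
section
/-!
# Subspaces of self-adjoint operators on a three-dimensional orthogonal space (helper914)

A subspace of self-adjoint operators which is invariant under the reflections and contains a non-scalar operator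
contains the operators `w ↦ B(t,w) t`, `t` singular.
-/

set_option autoImplicit false
set_option linter.unusedSectionVars false

namespace Cfsg.Agent.H914.SymOps

variable {F W : Type*} [Field F] [AddCommGroup W] [Module F W] (B : LinearMap.BilinForm F W)

/-- The reflection in `x`. -/
noncomputable def refl (x : W) : W →ₗ[F] W := LinearMap.id - (2 / B x x) • (B x).smulRight x

/-- The operator `w ↦ B(y,w) x + B(x,w) y`. -/
noncomputable def vee (x y : W) : W →ₗ[F] W := (B y).smulRight x + (B x).smulRight y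

variable {B}

theorem refl_apply (x w : W) : refl B x w = w - (2 / B x x * B x w) • x := by
  simp [refl, smul_smul]

theorem vee_apply (x y w : W) : vee B x y w = B y w • x + B x w • y := by
  simp [vee]

theorem vee_comm (x y : W) : vee B x y = vee B y x := by
  ext w; rw [vee_apply, vee_apply, add_comm]

theorem vee_add_right (x y z : W) : vee B x (y + z) = vee B x y + vee B x z := by
  ext w; simp only [vee_apply, LinearMap.add_apply, map_add]; module

theorem vee_smul_right (x y : W) (c : F) : vee B x (c • y) = c • vee B x y := by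
  ext w; simp only [vee_apply, LinearMap.smul_apply, map_smul, smul_eq_mul]; module

theorem vee_add_left (x y z : W) : vee B (x + y) z = vee B x z + vee B y z := by
  rw [vee_comm, vee_add_right, vee_comm z, vee_comm z]

theorem vee_smul_left (x y : W) (c : F) : vee B (c • x) y = c • vee B x y := by
  rw [vee_comm, vee_smul_right, vee_comm y]

theorem refl_adj (hs : ∀ x y, B x y = B y x) (u x w : W) : B (refl B u x) w = B x (refl B u w) := by
  rw [refl_apply, refl_apply]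
  simp only [map_sub, map_smul, LinearMap.sub_apply, LinearMap.smul_apply, smul_eq_mul]
  rw [hs x u]
  ring

theorem refl_vee (hs : ∀ x y, B x y = B y x) (u x y : W) :
    refl B u ∘ₗ vee B x y ∘ₗ refl B u = vee B (refl B u x) (refl B u y) := by
  ext w
  simp only [LinearMap.comp_apply]
  rw [vee_apply, vee_apply, map_add, map_smul, map_smul, refl_adj hs, refl_adj hs]

theorem refl_orth {u x : W} (h : B u x = 0) : refl B u x = x := by
  rw [refl_apply, h]; simp

theorem refl_self {u : W} (h : B u u ≠ 0) : refl B u u = -u := by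
  rw [refl_apply, div_mul_cancel₀ _ h]; module

theorem refl_isom (hs : ∀ x y, B x y = B y x) {u : W} (hu : B u u ≠ 0) (x y : W) :
    B (refl B u x) (refl B u y) = B x y := by
  rw [refl_apply, refl_apply]
  simp only [map_sub, map_smul, LinearMap.sub_apply, LinearMap.smul_apply, smul_eq_mul]
  rw [hs x u]
  field_simp
  ring

theorem refl_refl {u : W} (hu : B u u ≠ 0) (x : W) : refl B u (refl B u x) = x := by
  rw [refl_apply, refl_apply]
  simp only [map_sub, map_smul, smul_eq_mul]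
  have : 2 / B u u * (B u x - 2 / B u u * B u x * B u u) = - (2 / B u u * B u x) := by
    field_simp; ring
  rw [this]
  module

/-- The hypotheses. -/
structure Good (B : LinearMap.BilinForm F W) (S : Submodule F (W →ₗ[F] W)) : Prop where
  two : (2 : F) ≠ 0
  symm : ∀ x y, B x y = B y x
  adj : ∀ T ∈ S, ∀ x y, B (T x) y = B x (T y)
  conj : ∀ u, B u u ≠ 0 → ∀ T ∈ S, refl B u ∘ₗ T ∘ₗ refl B u ∈ S
  big : ∃ t : F, t ≠ 0 ∧ t * t ≠ 1

variable {S : Submodule F (W →ₗ[F] W)}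

namespace Good

theorem vee_mem (h : Good B S) {T : W →ₗ[F] W} (hT : T ∈ S) {x y : W} (hx : B x x ≠ 0) {α : F} (hTx : T x = α • x + y)
    (hxy : B x y = 0) : vee B x y ∈ S := by
  have h1 := S.sub_mem (h.conj x hx T hT) hT
  have h2 : refl B x ∘ₗ T ∘ₗ refl B x - T = (-(2 / B x x)) • vee B x y := by
    ext w
    simp only [LinearMap.sub_apply, LinearMap.comp_apply, LinearMap.smul_apply]
    have e1 : B x (T w) = α * B x w + B y w := by
      rw [← h.adj T hT, hTx, map_add, map_smul, LinearMap.add_apply, LinearMap.smul_apply, smul_eq_mul]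
    rw [vee_apply, refl_apply, refl_apply]
    simp only [map_sub, map_smul, hTx, map_add, smul_eq_mul, e1, hxy, add_zero]
    match_scalars <;> field_simp <;> ring
  rw [h2] at h1
  have h3 : (-(2 / B x x)) ≠ 0 := neg_ne_zero.mpr (div_ne_zero h.two hx)
  exact (S.smul_mem_iff h3).mp h1

theorem vee_conj (h : Good B S) {u x y : W} (hu : B u u ≠ 0) (hxy : vee B x y ∈ S) :
    vee B (refl B u x) (refl B u y) ∈ S := by
  rw [← refl_vee h.symm]
  exact h.conj u hu _ hxy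

/-- An element `c ≠ 0` with `a₁ + c² a₂ ≠ 0`. -/
theorem exists_c (h : Good B S) {a₁ a₂ : F} (h1 : a₁ ≠ 0) (h2 : a₂ ≠ 0) : ∃ c : F, c ≠ 0 ∧ a₁ + c * c * a₂ ≠ 0 := by
  by_cases h3 : a₁ + a₂ = 0
  · obtain ⟨t, ht0, ht⟩ := h.big
    refine ⟨t, ht0, ?_⟩
    have : a₁ + t * t * a₂ = (t * t - 1) * a₂ := by linear_combination h3
    rw [this]
    exact mul_ne_zero (sub_ne_zero.mpr ht) h2
  · exact ⟨1, one_ne_zero, by simpa using h3⟩

/-- Lemma B, first half. -/
theorem vee_step (h : Good B S) {x z₁ z₂ : W} (h1 : B z₁ z₁ ≠ 0) (h2 : B z₂ z₂ ≠ 0) (hx1 : B x z₁ = 0)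
    (hx2 : B x z₂ = 0) (h12 : B z₁ z₂ = 0) (hm : vee B x z₁ ∈ S) : vee B x z₂ ∈ S := by
  obtain ⟨c, hc0, hc⟩ := h.exists_c h1 h2
  have hn : B (z₁ + c • z₂) (z₁ + c • z₂) = B z₁ z₁ + c * c * B z₂ z₂ := by
    simp only [map_add, map_smul, LinearMap.add_apply, LinearMap.smul_apply, smul_eq_mul, h12, h.symm z₂ z₁]
    ring
  have hu : B (z₁ + c • z₂) (z₁ + c • z₂) ≠ 0 := by rw [hn]; exact hc
  have h3 := h.vee_conj hu hm
  have e1 : refl B (z₁ + c • z₂) x = x := by
    apply refl_orth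
    rw [h.symm, map_add, map_smul, hx1, hx2]; simp
  have e2 : refl B (z₁ + c • z₂) z₁ = z₁ - (2 / B (z₁ + c • z₂) (z₁ + c • z₂) * B z₁ z₁) • (z₁ + c • z₂) := by
    rw [refl_apply]
    congr 3
    simp only [map_add, map_smul, LinearMap.add_apply, LinearMap.smul_apply, smul_eq_mul, h12, h.symm z₂ z₁]
    ring
  rw [e1, e2] at h3
  set δ := 2 / B (z₁ + c • z₂) (z₁ + c • z₂) * B z₁ z₁ with hδ
  have hδ0 : δ ≠ 0 := mul_ne_zero (div_ne_zero h.two hu) h1
  have e3 : z₁ - δ • (z₁ + c • z₂) = (1 - δ) • z₁ + (-(δ * c)) • z₂ := by module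
  rw [e3, vee_add_right, vee_smul_right, vee_smul_right] at h3
  have h4 := (S.add_mem_iff_right (S.smul_mem (1 - δ) hm)).mp h3
  exact (S.smul_mem_iff (neg_ne_zero.mpr (mul_ne_zero hδ0 hc0))).mp h4

theorem vee_two (h : Good B S) {x z₁ z₂ : W} (h1 : B z₁ z₁ ≠ 0) (h2 : B z₂ z₂ ≠ 0) (hx1 : B x z₁ = 0)
    (hx2 : B x z₂ = 0) (h12 : B z₁ z₂ = 0) {α β : F} (hαβ : α ≠ 0 ∨ β ≠ 0) (hm : vee B x (α • z₁ + β • z₂) ∈ S) :
    vee B x z₁ ∈ S ∧ vee B x z₂ ∈ S := by
  have h21 : B z₂ z₁ = 0 := by rw [h.symm, h12]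
  have h3 := h.vee_conj h1 hm
  have e1 : refl B z₁ x = x := refl_orth (by rw [h.symm, hx1])
  rw [e1, map_add, map_smul, map_smul, refl_self h1, refl_orth h12] at h3
  have h4 := S.sub_mem hm h3
  have h5 := S.add_mem hm h3
  rw [vee_add_right, vee_add_right, vee_smul_right, vee_smul_right, vee_smul_right] at h4 h5
  have hneg : vee B x (-z₁) = -vee B x z₁ := by
    rw [← neg_one_smul F, vee_smul_right, neg_one_smul]
  rw [hneg] at h4 h5
  have e4 : α • vee B x z₁ + β • vee B x z₂ - (α • -vee B x z₁ + β • vee B x z₂) = (2 * α) • vee B x z₁ := by module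
  have e5 : α • vee B x z₁ + β • vee B x z₂ + (α • -vee B x z₁ + β • vee B x z₂) = (2 * β) • vee B x z₂ := by module
  rw [e4] at h4
  rw [e5] at h5
  rcases hαβ with hα | hβ
  · have h6 := (S.smul_mem_iff (mul_ne_zero h.two hα)).mp h4
    exact ⟨h6, h.vee_step h1 h2 hx1 hx2 h12 h6⟩
  · have h6 := (S.smul_mem_iff (mul_ne_zero h.two hβ)).mp h5
    exact ⟨h.vee_step h2 h1 hx2 hx1 h21 h6, h6⟩

end Good

/-- An orthogonal triple with non-zero norms. -/
structure Tri (B : LinearMap.BilinForm F W) (x y z : W) : Prop where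
  xx : B x x ≠ 0
  yy : B y y ≠ 0
  zz : B z z ≠ 0
  xy : B x y = 0
  xz : B x z = 0
  yz : B y z = 0

theorem Tri.rot {x y z : W} (hs : ∀ x y, B x y = B y x) (h : Tri B x y z) : Tri B y z x :=
  ⟨h.yy, h.zz, h.xx, h.yz, by rw [hs, h.xy], by rw [hs, h.xz]⟩

theorem Tri.swap {x y z : W} (hs : ∀ x y, B x y = B y x) (h : Tri B x y z) : Tri B y x z :=
  ⟨h.yy, h.xx, h.zz, by rw [hs, h.xy], h.yz, h.xz⟩

/-- Expansion in an orthogonal triple of a three-dimensional space. -/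
theorem Tri.expand [Module.Finite F W] (hd : Module.finrank F W = 3) {x y z : W} (hs : ∀ x y, B x y = B y x)
    (h : Tri B x y z) (w : W) : ∃ α β γ : F, w = α • x + β • y + γ • z := by
  have hli : LinearIndependent F ![x, y, z] := by
    rw [Fintype.linearIndependent_iff]
    intro g hg
    rw [Fin.sum_univ_three] at hg
    simp only [Matrix.cons_val_zero, Matrix.cons_val_one, Matrix.cons_val] at hg
    have yx : B y x = 0 := by rw [hs, h.xy]
    have zx : B z x = 0 := by rw [hs, h.xz]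
    have zy : B z y = 0 := by rw [hs, h.yz]
    have e1 := congrArg (fun w => B x w) hg
    have e2 := congrArg (fun w => B y w) hg
    have e3 := congrArg (fun w => B z w) hg
    simp only [map_add, map_smul, smul_eq_mul, map_zero, h.xy, h.xz, h.yz, yx, zx, zy, mul_zero, add_zero,
      zero_add] at e1 e2 e3
    have f1 := (mul_eq_zero.mp e1).resolve_right h.xx
    have f2 := (mul_eq_zero.mp e2).resolve_right h.yy
    have f3 := (mul_eq_zero.mp e3).resolve_right h.zz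
    intro i
    fin_cases i
    · exact f1
    · exact f2
    · exact f3
  let b := basisOfLinearIndependentOfCardEqFinrank hli (by rw [hd]; rfl)
  have hb : ⇑b = ![x, y, z] := coe_basisOfLinearIndependentOfCardEqFinrank hli (by rw [hd]; rfl)
  refine ⟨b.repr w 0, b.repr w 1, b.repr w 2, ?_⟩
  have := b.sum_repr w
  rw [Fin.sum_univ_three, hb] at this
  exact this.symm

namespace Good

/-- If every non-singular vector is an eigenvector, the operator is a scalar. -/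
theorem exists_first [Module.Finite F W] (h : Good B S) (hd : Module.finrank F W = 3) {x₁ x₂ x₃ : W}
    (ht : Tri B x₁ x₂ x₃) {T : W →ₗ[F] W} (hT : T ∈ S) (hns : ¬ ∃ c : F, ∀ w, T w = c • w) :
    ∃ x y z : W, Tri B x y z ∧ vee B x y ∈ S ∧ vee B x z ∈ S := by
  -- if `x` belongs to a triple, then either we are done or `x` is an eigenvector
  have key : ∀ x y z : W, Tri B x y z → (∃ x y z : W, Tri B x y z ∧ vee B x y ∈ S ∧ vee B x z ∈ S) ∨
      ∃ c : F, T x = c • x := by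
    intro x y z hxyz
    obtain ⟨α, β, γ, hw⟩ := hxyz.expand hd h.symm (T x)
    by_cases hβγ : β ≠ 0 ∨ γ ≠ 0
    · left
      have h0 : B x (β • y + γ • z) = 0 := by
        rw [map_add, map_smul, map_smul, hxyz.xy, hxyz.xz]; simp
      have h1 := h.vee_mem hT hxyz.xx (by rw [hw, add_assoc]) h0
      obtain ⟨h2, h3⟩ := h.vee_two hxyz.yy hxyz.zz hxyz.xy hxyz.xz hxyz.yz hβγ h1
      exact ⟨x, y, z, hxyz, h2, h3⟩
    · push Not at hβγ
      right
      refine ⟨α, ?_⟩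
      rw [hw, hβγ.1, hβγ.2, zero_smul, zero_smul, add_zero, add_zero]
  by_contra hno
  have key' : ∀ x y z : W, Tri B x y z → ∃ c : F, T x = c • x := fun x y z hxyz => (key x y z hxyz).resolve_left hno
  -- equality of the eigenvalues
  have heq : ∀ x y z : W, Tri B x y z → ∀ a b : F, T x = a • x → T y = b • y → a = b := by
    intro x y z hxyz a b ha hb
    obtain ⟨c, hc0, hc⟩ := h.exists_c hxyz.xx hxyz.yy
    have yx : B y x = 0 := by rw [h.symm, hxyz.xy]
    have zx : B z x = 0 := by rw [h.symm, hxyz.xz]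
    have zy : B z y = 0 := by rw [h.symm, hxyz.yz]
    have htri : Tri B (x + c • y) ((-(c * B y y)) • x + B x x • y) z := by
      refine ⟨?_, ?_, hxyz.zz, ?_, ?_, ?_⟩
      · simp only [map_add, map_smul, LinearMap.add_apply, LinearMap.smul_apply, smul_eq_mul, hxyz.xy, yx]
        convert hc using 1
        ring
      · simp only [map_add, map_smul, LinearMap.add_apply, LinearMap.smul_apply, smul_eq_mul, hxyz.xy, yx]
        have : -(c * B y y) * (-(c * B y y) * B x x + B x x * 0) + B x x * (-(c * B y y) * 0 + B x x * B y y) =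
            B x x * B y y * (B x x + c * c * B y y) := by ring
        rw [mul_zero, add_zero, mul_zero, zero_add] at this ⊢
        rw [this]
        exact mul_ne_zero (mul_ne_zero hxyz.xx hxyz.yy) hc
      · simp only [map_add, map_smul, LinearMap.add_apply, LinearMap.smul_apply, smul_eq_mul, hxyz.xy, yx]
        ring
      · simp only [map_add, map_smul, LinearMap.add_apply, LinearMap.smul_apply, smul_eq_mul, hxyz.xz, hxyz.yz]
        ring
      · simp only [map_add, map_smul, LinearMap.add_apply, LinearMap.smul_apply, smul_eq_mul, hxyz.xz, hxyz.yz]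
        ring
    obtain ⟨d, hd'⟩ := key' _ _ _ htri
    rw [map_add, map_smul, ha, hb] at hd'
    have e1 := congrArg (fun w => B x w) hd'
    have e2 := congrArg (fun w => B y w) hd'
    simp only [map_add, map_smul, smul_eq_mul, hxyz.xy, yx, mul_zero, add_zero, zero_add] at e1 e2
    have f1 : a = d := mul_right_cancel₀ hxyz.xx e1
    have f2 : b = d := by
      have : c * (b * B y y) = c * (d * B y y) := by rw [e2]; ring
      exact mul_right_cancel₀ hxyz.yy (mul_left_cancel₀ hc0 this)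
    rw [f1, f2]
  obtain ⟨a, ha⟩ := key' _ _ _ ht
  obtain ⟨b, hb⟩ := key' _ _ _ (ht.rot h.symm)
  obtain ⟨c, hc⟩ := key' _ _ _ ((ht.rot h.symm).rot h.symm)
  have hab := heq _ _ _ ht a b ha hb
  have hbc := heq _ _ _ (ht.rot h.symm) b c hb hc
  subst hab hbc
  apply hns
  refine ⟨a, fun w => ?_⟩
  obtain ⟨α, β, γ, rfl⟩ := ht.expand hd h.symm w
  simp only [map_add, map_smul, ha, hb, hc]
  module

/-- **Lemma A**. -/
theorem main [Finite F] [Module.Finite F W] (h : Good B S) (hd : Module.finrank F W = 3) {x₁ x₂ x₃ : W}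
    (ht : Tri B x₁ x₂ x₃) {T : W →ₗ[F] W} (hT : T ∈ S) (hns : ¬ ∃ c : F, ∀ w, T w = c • w) :
    ∃ e e' z : W, B e e = 0 ∧ B e' e' = 0 ∧ B e e' = 1 ∧ B e z = 0 ∧ B e' z = 0 ∧ B z z ≠ 0 ∧
      (∀ w, ∃ α β γ : F, w = α • e + β • e' + γ • z) ∧
      ∀ t, B t t = 0 → (t = e ∨ B e t ≠ 0) → vee B t t ∈ S := by
  have := Fintype.ofFinite F
  obtain ⟨x, y, z, hxyz, hxy, hxz⟩ := h.exists_first hd ht hT hns
  -- all three
  have hyx : vee B y x ∈ S := by rw [vee_comm]; exact hxy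
  have hyx' : vee B y z ∈ S := h.vee_step hxyz.xx hxyz.zz (by rw [h.symm, hxyz.xy]) hxyz.yz hxyz.xz hyx
  -- solve `α² B y y + β² B z z = - B x x / (B y y * B z z)`
  obtain ⟨α, β, hαβ⟩ : ∃ α β : F, α * α * B y y + β * β * B z z = -(B x x / (B y y * B z z)) := by
    have hodd : Fintype.card F % 2 = 1 := FiniteField.odd_card_of_char_ne_two (by
      intro h2
      apply h.two
      have := CharP.cast_eq_zero F (ringChar F)
      rw [h2] at this
      exact_mod_cast this)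
    obtain ⟨α, β, hαβ⟩ := FiniteField.exists_root_sum_quadratic
      (f := Polynomial.C (B y y) * Polynomial.X ^ 2 + Polynomial.C 0 * Polynomial.X + Polynomial.C (B x x / (B y y * B z z)))
      (g := Polynomial.C (B z z) * Polynomial.X ^ 2 + Polynomial.C 0 * Polynomial.X + Polynomial.C 0)
      (Polynomial.degree_quadratic hxyz.yy) (Polynomial.degree_quadratic hxyz.zz) hodd
    refine ⟨α, β, ?_⟩
    simp only [Polynomial.eval_add, Polynomial.eval_mul, Polynomial.eval_C, Polynomial.eval_pow, Polynomial.eval_X] at hαβ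
    linear_combination hαβ
  have hyy := hxyz.yy
  have hzz := hxyz.zz
  have hxx := hxyz.xx
  have zy : B z y = 0 := by rw [h.symm, hxyz.yz]
  have yx : B y x = 0 := by rw [h.symm, hxyz.xy]
  have zx : B z x = 0 := by rw [h.symm, hxyz.xz]
  set p := α • y + β • z with hp
  set p' := (-(β * B z z)) • y + (α * B y y) • z with hp'
  have hBp : B p p = -(B x x / (B y y * B z z)) := by
    rw [hp, ← hαβ]
    simp only [map_add, map_smul, LinearMap.add_apply, LinearMap.smul_apply, smul_eq_mul, hxyz.yz, zy]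
    ring
  have hBp' : B p' p' = - B x x := by
    have e1 : B p' p' = B y y * B z z * (α * α * B y y + β * β * B z z) := by
      rw [hp']
      simp only [map_add, map_smul, LinearMap.add_apply, LinearMap.smul_apply, smul_eq_mul, hxyz.yz, zy]
      ring
    rw [e1, hαβ]
    field_simp
  have hBpp' : B p p' = 0 := by
    rw [hp, hp']
    simp only [map_add, map_smul, LinearMap.add_apply, LinearMap.smul_apply, smul_eq_mul, hxyz.yz, zy]
    ring
  have hBxp : B x p = 0 := by rw [hp, map_add, map_smul, map_smul, hxyz.xy, hxyz.xz]; simp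
  have hBxp' : B x p' = 0 := by rw [hp', map_add, map_smul, map_smul, hxyz.xy, hxyz.xz]; simp
  have hBpx : B p x = 0 := by rw [h.symm, hBxp]
  have hBp'x : B p' x = 0 := by rw [h.symm, hBxp']
  have hBp'p : B p' p = 0 := by rw [h.symm, hBpp']
  have hp0 : B p p ≠ 0 := by
    rw [hBp]
    exact neg_ne_zero.mpr (div_ne_zero hxx (mul_ne_zero hyy hzz))
  have hp'0 : B p' p' ≠ 0 := by rw [hBp']; exact neg_ne_zero.mpr hxx
  have htri : Tri B p x p' := ⟨hp0, hxx, hp'0, hBpx, hBpp', hBxp'⟩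
  have hm1 : vee B p x ∈ S := by
    rw [vee_comm, hp, vee_add_right, vee_smul_right, vee_smul_right]
    exact S.add_mem (S.smul_mem _ hxy) (S.smul_mem _ hxz)
  have hm2 : vee B p p' ∈ S := h.vee_step hxx hp'0 hBpx hBpp' hBxp' hm1
  -- the singular vector
  set e := x + p' with he
  have hee : B e e = 0 := by
    rw [he]
    simp only [map_add, LinearMap.add_apply, hBxp', hBp'x, hBp']
    ring
  have hpe : B p e = 0 := by rw [he, map_add, hBpx, hBpp', add_zero]
  have hep : B e p = 0 := by rw [h.symm, hpe]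
  have hm3 : vee B p e ∈ S := by
    rw [he, vee_add_right]
    exact S.add_mem hm1 hm2
  have hpe2 : B (p + e) (p + e) = B p p := by
    simp only [map_add, LinearMap.add_apply, hpe, hep, hee]
    ring
  have hm4 : vee B e e ∈ S := by
    have h1 := h.vee_conj (u := p + e) (by rw [hpe2]; exact hp0) hm3
    have e1 : refl B (p + e) p = -p - (2 : F) • e := by
      rw [refl_apply, hpe2]
      have : B (p + e) p = B p p := by rw [LinearMap.map_add B p e, LinearMap.add_apply, hep, add_zero]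
      rw [this, div_mul_cancel₀ _ hp0]
      module
    have e2 : refl B (p + e) e = e := refl_orth (by rw [LinearMap.map_add B p e, LinearMap.add_apply, hpe, hee, add_zero])
    rw [e1, e2] at h1
    have e3 : vee B (-p - (2 : F) • e) e = -vee B p e - (2 : F) • vee B e e := by
      have : -p - (2 : F) • e = (-1 : F) • p + (-2 : F) • e := by module
      rw [this, vee_add_left, vee_smul_left, vee_smul_left]
      module
    rw [e3] at h1
    have h2 := (S.sub_mem_iff_right (S.neg_mem hm3)).mp h1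
    exact (S.smul_mem_iff h.two).mp h2
  -- the second singular vector
  have h2x : 2 * B x x ≠ 0 := mul_ne_zero h.two hxx
  refine ⟨e, (2 * B x x)⁻¹ • (x - p'), p, hee, ?_, ?_, hep, ?_, hp0, ?_, ?_⟩
  · simp only [map_sub, map_smul, LinearMap.sub_apply, LinearMap.smul_apply, smul_eq_mul, hBxp', hBp'x, hBp']
    ring
  · rw [he]
    simp only [map_sub, map_add, map_smul, LinearMap.add_apply, smul_eq_mul, hBxp', hBp'x, hBp']
    have h20 := h.two
    field_simp
    ring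
  · simp only [map_sub, map_smul, LinearMap.sub_apply, LinearMap.smul_apply, smul_eq_mul, hBxp, hBp'p]
    ring
  · intro w
    obtain ⟨a, b, c, rfl⟩ := htri.expand hd h.symm w
    refine ⟨(b + c) / 2, (2 * B x x) * ((b - c) / 2), a, ?_⟩
    rw [he, smul_smul, mul_assoc, mul_comm ((b - c) / 2), ← mul_assoc, mul_inv_cancel₀ h2x, one_mul]
    have h20 := h.two
    match_scalars <;> field_simp <;> ring
  · rintro t htt (rfl | het)
    · exact hm4
    · have hte : B t e ≠ 0 := by rw [h.symm]; exact het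
      have hn : B (e - t) (e - t) = -(2 * B e t) := by
        simp only [map_sub, LinearMap.sub_apply, htt, hee, h.symm t e]
        ring
      have hn0 : B (e - t) (e - t) ≠ 0 := by rw [hn]; exact neg_ne_zero.mpr (mul_ne_zero h.two het)
      have h1 := h.vee_conj hn0 hm4
      have e1 : refl B (e - t) e = t := by
        rw [refl_apply, hn]
        have e2 : B (e - t) e = - B e t := by
          rw [map_sub, LinearMap.sub_apply, hee, h.symm t e]
          ring
        rw [e2]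
        have e3 : 2 / -(2 * B e t) * -B e t = 1 := by
          have h20 := h.two
          field_simp
        rw [e3]
        module
      rw [e1] at h1
      exact h1

end Good

end Cfsg.Agent.H914.SymOps
end

-- part: H914/TensModel
section
/-!
# Block matrices for the tensor product of a plane and a space (helper914)
-/

set_option autoImplicit false
set_option linter.unusedSectionVars false

open Cfsg Cfsg.Geo Matrix
open scoped Matrix MatrixGroups Kronecker

namespace Cfsg.Agent.H914.TensModel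

open Cfsg.Agent.H912

variable {F : Type*} [Field F] {ι : Type} [Fintype ι] [DecidableEq ι] {n : ℕ}

/-- Conjugation by an invertible matrix. -/
noncomputable def conjA (P : GL ι F) : Matrix ι ι F ≃ₐ[F] Matrix ι ι F where
  toFun x := (P : Matrix ι ι F) * x * ((P⁻¹ : GL ι F) : Matrix ι ι F)
  invFun x := ((P⁻¹ : GL ι F) : Matrix ι ι F) * x * (P : Matrix ι ι F)
  left_inv x := by
    show ((P⁻¹ : GL ι F) : Matrix ι ι F) * ((P : Matrix ι ι F) * x * ((P⁻¹ : GL ι F) : Matrix ι ι F)) * (P : Matrix ι ι F) = x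
    rw [mul_assoc, mul_assoc, Units.inv_mul, mul_one, ← mul_assoc, Units.inv_mul, one_mul]
  right_inv x := by
    show (P : Matrix ι ι F) * (((P⁻¹ : GL ι F) : Matrix ι ι F) * x * (P : Matrix ι ι F)) * ((P⁻¹ : GL ι F) : Matrix ι ι F) = x
    rw [mul_assoc, mul_assoc, Units.mul_inv, mul_one, ← mul_assoc, Units.mul_inv, one_mul]
  map_mul' x y := by
    show (P : Matrix ι ι F) * (x * y) * ((P⁻¹ : GL ι F) : Matrix ι ι F) =
      (P : Matrix ι ι F) * x * ((P⁻¹ : GL ι F) : Matrix ι ι F) * ((P : Matrix ι ι F) * y * ((P⁻¹ : GL ι F) : Matrix ι ι F))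
    rw [mul_assoc _ _ ((P : Matrix ι ι F) * y * _), ← mul_assoc ((P⁻¹ : GL ι F) : Matrix ι ι F), ← mul_assoc ((P⁻¹ : GL ι F) : Matrix ι ι F),
      Units.inv_mul, one_mul]
    simp only [mul_assoc]
  map_add' x y := by
    show (P : Matrix ι ι F) * (x + y) * ((P⁻¹ : GL ι F) : Matrix ι ι F) = _
    rw [mul_add, add_mul]
  commutes' c := by
    show (P : Matrix ι ι F) * (algebraMap F (Matrix ι ι F) c) * ((P⁻¹ : GL ι F) : Matrix ι ι F) = _
    rw [← Algebra.commutes, mul_assoc, Units.mul_inv, mul_one]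

/-- The matrix with given blocks. -/
noncomputable def blk (e : ι ≃ Fin 2 × Fin n) (P : GL ι F) :
    Matrix (Fin 2) (Fin 2) (Matrix (Fin n) (Fin n) F) ≃ₐ[F] Matrix ι ι F :=
  ((Matrix.compAlgEquiv (Fin 2) (Fin n) F F).trans (Matrix.reindexAlgEquiv F F e.symm)).trans (conjA P)

variable (e : ι ≃ Fin 2 × Fin n) (P : GL ι F)

theorem blk_tens (a : Matrix (Fin 2) (Fin 2) F) (b : Matrix (Fin n) (Fin n) F) :
    blk e P (Matrix.of fun i j => a i j • b) = tens e P a b := rfl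

/-- The vector with two given components. -/
noncomputable def vec (y : Fin 2 → Fin n → F) : ι → F := (P : Matrix ι ι F) *ᵥ (fun i => y (e i).1 (e i).2)

theorem blk_mulVec (X : Matrix (Fin 2) (Fin 2) (Matrix (Fin n) (Fin n) F)) (y : Fin 2 → Fin n → F) :
    blk e P X *ᵥ vec e P y = vec e P (fun i => ∑ j, X i j *ᵥ y j) := by
  show ((P : Matrix ι ι F) * Matrix.reindexAlgEquiv F F e.symm (Matrix.comp _ _ _ _ _ X) * ((P⁻¹ : GL ι F) : Matrix ι ι F)) *ᵥ _ = _
  unfold vec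
  rw [mulVec_mulVec, mul_assoc _ _ (P : Matrix ι ι F), Units.inv_mul, mul_one, ← mulVec_mulVec]
  congr 1
  funext i
  rw [mulVec, dotProduct]
  simp only [coe_reindexAlgEquiv, reindex_apply, submatrix_apply, Equiv.symm_symm, Matrix.comp_apply]
  rw [e.sum_comp (fun p => X (e i).1 p.1 (e i).2 p.2 * y p.1 p.2), Fintype.sum_prod_type, Finset.sum_apply]
  rfl

end Cfsg.Agent.H914.TensModel
end

-- part: H914/TensTransv
section
/-!
# Overgroups of `SL₂ ⊗ O₃` in the symplectic group: transvections (helper914)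
-/

set_option autoImplicit false
set_option linter.unusedSectionVars false

open Cfsg Cfsg.Geo Matrix
open scoped Matrix MatrixGroups Kronecker

namespace Cfsg.Agent.H914.TensModel

open Cfsg.Agent.H912 Cfsg.Agent.H910 Cfsg.Agent.ClassicalGeometry.SympBasic Cfsg.Agent.H876 Cfsg.Agent.S5652
open Cfsg.Agent.H914.SymOps

variable {F : Type*} [Field F] {m n : ℕ}

/-- The hypotheses on the overgroup. -/
structure Setup (e : Fin m ⊕ Fin m ≃ Fin 2 × Fin n) (P : GL (Fin m ⊕ Fin m) F)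
    (B : LinearMap.BilinForm F (Fin n → F)) (M : Subgroup (GL (Fin m ⊕ Fin m) F)) : Prop where
  form : ∀ y y', sympForm m F (vec e P y) (vec e P y') = B (y 0) (y' 1) - B (y 1) (y' 0)
  symm : ∀ x y, B x y = B y x
  nd : ∀ x, (∀ y, B x y = 0) → x = 0
  two : (2 : F) ≠ 0
  big : ∃ t : F, t ≠ 0 ∧ t * t ≠ 1
  le : M ≤ spGL m F
  tens : ∀ (a : Matrix (Fin 2) (Fin 2) F) (r : Matrix (Fin n) (Fin n) F), a.det = 1 →
    (∀ w w', B (r *ᵥ w) (r *ᵥ w') = B w w') → ∀ g : GL (Fin m ⊕ Fin m) F, (g : Matrix _ _ F) = tens e P a r → g ∈ M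

variable {e : Fin m ⊕ Fin m ≃ Fin 2 × Fin n} {P : GL (Fin m ⊕ Fin m) F}
    {B : LinearMap.BilinForm F (Fin n → F)} {M : Subgroup (GL (Fin m ⊕ Fin m) F)}

theorem vec_add (y y' : Fin 2 → Fin n → F) : vec e P (y + y') = vec e P y + vec e P y' := by
  unfold vec
  rw [← mulVec_add]
  rfl

theorem vec_smul (c : F) (y : Fin 2 → Fin n → F) : vec e P (c • y) = c • vec e P y := by
  unfold vec
  rw [← mulVec_smul]
  rfl

theorem vec_surj (v : Fin m ⊕ Fin m → F) : ∃ y, v = vec e P y := by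
  refine ⟨fun i j => ((((P⁻¹ : GL (Fin m ⊕ Fin m) F) : Matrix _ _ F) *ᵥ v) (e.symm (i, j))), ?_⟩
  unfold vec
  have : (fun i => (((P⁻¹ : GL (Fin m ⊕ Fin m) F) : Matrix _ _ F) *ᵥ v) (e.symm ((e i).1, (e i).2))) =
      ((P⁻¹ : GL (Fin m ⊕ Fin m) F) : Matrix _ _ F) *ᵥ v := by
    funext i
    rw [Prod.mk.eta, Equiv.symm_apply_apply]
  rw [this, mulVec_mulVec, Units.mul_inv, one_mulVec]

/-- The upper unitriangular part. -/
noncomputable def up (e : Fin m ⊕ Fin m ≃ Fin 2 × Fin n) (P : GL (Fin m ⊕ Fin m) F) (b : Matrix (Fin n) (Fin n) F) :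
    Matrix (Fin m ⊕ Fin m) (Fin m ⊕ Fin m) F := blk e P !![0, b; 0, 0]

theorem up_eq_tens (b : Matrix (Fin n) (Fin n) F) : up e P b = tens e P !![0, 1; 0, 0] b := by
  rw [← blk_tens, up]
  congr 1
  ext i j
  fin_cases i <;> fin_cases j <;> simp

theorem up_mulVec (b : Matrix (Fin n) (Fin n) F) (y : Fin 2 → Fin n → F) :
    up e P b *ᵥ vec e P y = vec e P ![b *ᵥ y 1, 0] := by
  rw [up, blk_mulVec]
  congr 1
  funext i
  fin_cases i
  · simp [Fin.sum_univ_two]
  · simp [Fin.sum_univ_two]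

theorem up_add (b b' : Matrix (Fin n) (Fin n) F) : up e P (b + b') = up e P b + up e P b' := by
  rw [up, up, up, ← map_add]
  congr 1
  ext i j
  fin_cases i <;> fin_cases j <;> simp

theorem up_smul (c : F) (b : Matrix (Fin n) (Fin n) F) : up e P (c • b) = c • up e P b := by
  rw [up, up, ← map_smul]
  congr 1
  ext i j
  fin_cases i <;> fin_cases j <;> simp

theorem up_mul (b b' : Matrix (Fin n) (Fin n) F) : up e P b * up e P b' = 0 := by
  rw [up_eq_tens, up_eq_tens, tens_mul]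
  have : (!![0, 1; 0, 0] : Matrix (Fin 2) (Fin 2) F) * !![0, 1; 0, 0] = 0 := by
    ext i j
    fin_cases i <;> fin_cases j <;> simp
  rw [this, ← blk_tens]
  have h2 : (Matrix.of fun i j => (0 : Matrix (Fin 2) (Fin 2) F) i j • (b * b')) = 0 := by
    ext i j
    simp
  rw [h2, map_zero]

/-- The unit `a ⊗ r`. -/
noncomputable def tU (e : Fin m ⊕ Fin m ≃ Fin 2 × Fin n) (P : GL (Fin m ⊕ Fin m) F) (a : GL (Fin 2) F) (r : GL (Fin n) F) :
    GL (Fin m ⊕ Fin m) F where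
  val := Cfsg.Agent.H912.tens e P a r
  inv := Cfsg.Agent.H912.tens e P ((a⁻¹ : GL (Fin 2) F) : Matrix _ _ F) ((r⁻¹ : GL (Fin n) F) : Matrix _ _ F)
  val_inv := by rw [tens_mul, Units.mul_inv, Units.mul_inv, tens_one]
  inv_val := by rw [tens_mul, Units.inv_mul, Units.inv_mul, tens_one]

theorem tU_conj (a : GL (Fin 2) F) (r : GL (Fin n) F) (x : Matrix (Fin 2) (Fin 2) F) (y : Matrix (Fin n) (Fin n) F) :
    (tU e P a r : Matrix _ _ F) * Cfsg.Agent.H912.tens e P x y * (((tU e P a r)⁻¹ : GL (Fin m ⊕ Fin m) F) : Matrix _ _ F) =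
      Cfsg.Agent.H912.tens e P ((a : Matrix _ _ F) * x * ((a⁻¹ : GL (Fin 2) F) : Matrix _ _ F))
        ((r : Matrix _ _ F) * y * ((r⁻¹ : GL (Fin n) F) : Matrix _ _ F)) := by
  show Cfsg.Agent.H912.tens e P a r * _ * Cfsg.Agent.H912.tens e P _ _ = _
  rw [tens_mul, tens_mul]

namespace Setup

theorem one_isom (h : Setup e P B M) (w w' : Fin n → F) :
    B ((1 : Matrix (Fin n) (Fin n) F) *ᵥ w) ((1 : Matrix (Fin n) (Fin n) F) *ᵥ w') = B w w' := by
  rw [one_mulVec, one_mulVec]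

/-- The operators `T` with `1 + E₀₁ ⊗ T ∈ M`. -/
noncomputable def Smod (h : Setup e P B M) : Submodule F ((Fin n → F) →ₗ[F] (Fin n → F)) where
  carrier := {T | ∃ g ∈ M, (g : Matrix _ _ F) = 1 + up e P (LinearMap.toMatrix' T)}
  zero_mem' := ⟨1, M.one_mem, by
    rw [map_zero, up_eq_tens, ← blk_tens]
    have h2 : (Matrix.of fun i j => (!![0, 1; 0, 0] : Matrix (Fin 2) (Fin 2) F) i j • (0 : Matrix (Fin n) (Fin n) F)) = 0 := by
      ext i j
      simp
    rw [h2, map_zero, add_zero]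
    rfl⟩
  add_mem' := by
    rintro T T' ⟨g, hg, e1⟩ ⟨g', hg', e2⟩
    refine ⟨g * g', M.mul_mem hg hg', ?_⟩
    rw [Units.val_mul, e1, e2, mul_add, mul_one, add_mul, one_mul, up_mul, map_add, up_add, add_zero, add_assoc]
  smul_mem' := by
    have hneg : ∀ T : (Fin n → F) →ₗ[F] (Fin n → F), (∃ g ∈ M, (g : Matrix _ _ F) = 1 + up e P (LinearMap.toMatrix' T)) →
        ∃ g ∈ M, (g : Matrix _ _ F) = 1 - up e P (LinearMap.toMatrix' T) := by
      rintro T ⟨g, hg, e1⟩
      refine ⟨g⁻¹, M.inv_mem hg, ?_⟩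
      have : (g : Matrix _ _ F) * (1 - up e P (LinearMap.toMatrix' T)) = 1 := by
        rw [e1, mul_sub, mul_one, add_mul, one_mul, up_mul, add_zero, add_sub_cancel_right]
      calc ((g⁻¹ : GL (Fin m ⊕ Fin m) F) : Matrix _ _ F) =
          ((g⁻¹ : GL (Fin m ⊕ Fin m) F) : Matrix _ _ F) * ((g : Matrix _ _ F) * (1 - up e P (LinearMap.toMatrix' T))) := by
            rw [this, mul_one]
        _ = _ := by rw [← mul_assoc, Units.inv_mul, one_mul]
    have hsq : ∀ (c : F) (T : (Fin n → F) →ₗ[F] (Fin n → F)),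
        (∃ g ∈ M, (g : Matrix _ _ F) = 1 + up e P (LinearMap.toMatrix' T)) →
        ∃ g ∈ M, (g : Matrix _ _ F) = 1 + (c * c) • up e P (LinearMap.toMatrix' T) := by
      rintro c T ⟨g, hg, e1⟩
      by_cases hc : c = 0
      · exact ⟨1, M.one_mem, by rw [hc, mul_zero, zero_smul, add_zero]; rfl⟩
      let a : GL (Fin 2) F := ⟨!![c, 0; 0, c⁻¹], !![c⁻¹, 0; 0, c], by
        ext i j; fin_cases i <;> fin_cases j <;> simp [hc], by
        ext i j; fin_cases i <;> fin_cases j <;> simp [hc]⟩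
      have ha : tU e P a 1 ∈ M := h.tens a 1 (by simp [a, hc]) h.one_isom _ rfl
      refine ⟨tU e P a 1 * g * (tU e P a 1)⁻¹, M.mul_mem (M.mul_mem ha hg) (M.inv_mem ha), ?_⟩
      rw [Units.val_mul, Units.val_mul, e1, mul_add, mul_one, add_mul, Units.mul_inv, up_eq_tens, tU_conj]
      congr 1
      rw [← up_eq_tens, ← up_smul, up_eq_tens]
      have h1 : (a : Matrix (Fin 2) (Fin 2) F) * !![0, 1; 0, 0] * ((a⁻¹ : GL (Fin 2) F) : Matrix (Fin 2) (Fin 2) F) = (c * c) • !![0, 1; 0, 0] := by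
        show !![c, 0; 0, c⁻¹] * !![0, 1; 0, 0] * !![c⁻¹, 0; 0, c] = _
        ext i j; fin_cases i <;> fin_cases j <;> simp
      rw [h1, inv_one, Units.val_one, one_mul, mul_one, ← blk_tens, ← blk_tens]
      congr 1
      ext i j : 2
      simp only [Matrix.of_apply, Matrix.smul_apply, smul_smul, smul_eq_mul, mul_comm]
    rintro c T hT
    obtain ⟨g1, hg1, e1⟩ := hsq ((c + 1) / 2) T hT
    obtain ⟨g2, hg2, e2⟩ := hsq ((c - 1) / 2) T hT
    refine ⟨g1 * g2⁻¹, M.mul_mem hg1 (M.inv_mem hg2), ?_⟩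
    have e3 : ((g2⁻¹ : GL (Fin m ⊕ Fin m) F) : Matrix _ _ F) = 1 - ((c - 1) / 2 * ((c - 1) / 2)) • up e P (LinearMap.toMatrix' T) := by
      have : (g2 : Matrix _ _ F) * (1 - ((c - 1) / 2 * ((c - 1) / 2)) • up e P (LinearMap.toMatrix' T)) = 1 := by
        rw [e2, mul_sub, mul_one, add_mul, one_mul, smul_mul_smul_comm, up_mul, smul_zero, add_zero, add_sub_cancel_right]
      calc ((g2⁻¹ : GL (Fin m ⊕ Fin m) F) : Matrix _ _ F) =
          ((g2⁻¹ : GL (Fin m ⊕ Fin m) F) : Matrix _ _ F) * ((g2 : Matrix _ _ F) * (1 - ((c - 1) / 2 * ((c - 1) / 2)) • up e P (LinearMap.toMatrix' T))) := by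
            rw [this, mul_one]
        _ = _ := by rw [← mul_assoc, Units.inv_mul, one_mul]
    rw [Units.val_mul, e1, e3, mul_sub, mul_one, add_mul, one_mul, smul_mul_smul_comm, up_mul, smul_zero, add_zero,
      map_smul, up_smul]
    have h2 := h.two
    have h3 : c • up e P (LinearMap.toMatrix' T) = ((c + 1) / 2 * ((c + 1) / 2) - (c - 1) / 2 * ((c - 1) / 2)) • up e P (LinearMap.toMatrix' T) := by
      congr 1
      field_simp
      ring
    rw [h3]
    module

theorem mem_Smod (h : Setup e P B M) {T : (Fin n → F) →ₗ[F] (Fin n → F)} :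
    T ∈ h.Smod ↔ ∃ g ∈ M, (g : Matrix _ _ F) = 1 + up e P (LinearMap.toMatrix' T) := Iff.rfl

end Setup

end Cfsg.Agent.H914.TensModel
end

-- part: H914/TensTransv2
section
/-!
# Overgroups of `SL₂ ⊗ O₃` in the symplectic group: transvections, II (helper914)
-/

set_option autoImplicit false
set_option linter.unusedSectionVars false

open Cfsg Cfsg.Geo Matrix
open scoped Matrix MatrixGroups Kronecker

namespace Cfsg.Agent.H914.TensModel

open Cfsg.Agent.H912 Cfsg.Agent.H910 Cfsg.Agent.ClassicalGeometry.SympBasic Cfsg.Agent.H876 Cfsg.Agent.S5652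
open Cfsg.Agent.H914.SymOps

variable {F : Type*} [Field F] {m n : ℕ}
variable {e : Fin m ⊕ Fin m ≃ Fin 2 × Fin n} {P : GL (Fin m ⊕ Fin m) F}
    {B : LinearMap.BilinForm F (Fin n → F)} {M : Subgroup (GL (Fin m ⊕ Fin m) F)}

/-- The pure tensor. -/
noncomputable def tt (e : Fin m ⊕ Fin m ≃ Fin 2 × Fin n) (P : GL (Fin m ⊕ Fin m) F) (u : Fin 2 → F) (w : Fin n → F) :
    Fin m ⊕ Fin m → F := vec e P (fun i => u i • w)

theorem tt_add_left (u u' : Fin 2 → F) (w : Fin n → F) : tt e P (u + u') w = tt e P u w + tt e P u' w := by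
  unfold tt
  rw [← vec_add]
  congr 1
  funext i
  simp [add_smul]

theorem tt_smul_left (c : F) (u : Fin 2 → F) (w : Fin n → F) : tt e P (c • u) w = c • tt e P u w := by
  unfold tt
  rw [← vec_smul]
  congr 1
  funext i
  simp [mul_smul]

theorem tt_add_right (u : Fin 2 → F) (w w' : Fin n → F) : tt e P u (w + w') = tt e P u w + tt e P u w' := by
  unfold tt
  rw [← vec_add]
  congr 1
  funext i
  simp

theorem tt_smul_right (c : F) (u : Fin 2 → F) (w : Fin n → F) : tt e P u (c • w) = c • tt e P u w := by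
  unfold tt
  rw [← vec_smul]
  congr 1
  funext i
  exact smul_comm _ _ _

theorem tens_tt (a : Matrix (Fin 2) (Fin 2) F) (r : Matrix (Fin n) (Fin n) F) (u : Fin 2 → F) (w : Fin n → F) :
    tens e P a r *ᵥ tt e P u w = tt e P (a *ᵥ u) (r *ᵥ w) := by
  unfold tt
  rw [← blk_tens, blk_mulVec]
  congr 1
  funext i
  simp only [Matrix.of_apply, Matrix.mulVec_smul, Matrix.smul_mulVec, smul_smul, ← Finset.sum_smul]
  congr 1
  exact Finset.sum_congr rfl fun j _ => mul_comm _ _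

/-- The determinant form on the plane. -/
def dt (u u' : Fin 2 → F) : F := u 0 * u' 1 - u 1 * u' 0

/-- A matrix of determinant one with first column `u`. -/
theorem exists_sl {u : Fin 2 → F} (hu : u ≠ 0) : ∃ a : Matrix (Fin 2) (Fin 2) F, a.det = 1 ∧ a *ᵥ ![1, 0] = u := by
  by_cases h0 : u 0 = 0
  · have h1 : u 1 ≠ 0 := by
      intro h1
      apply hu
      funext i
      fin_cases i
      · exact h0
      · exact h1
    refine ⟨!![u 0, -(u 1)⁻¹; u 1, 0], ?_, ?_⟩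
    · rw [det_fin_two_of, h0]
      field_simp
      ring
    · funext i
      fin_cases i <;> simp [Matrix.mulVec, dotProduct, Fin.sum_univ_two]
  · refine ⟨!![u 0, 0; u 1, (u 0)⁻¹], ?_, ?_⟩
    · rw [det_fin_two_of]
      field_simp
      ring
    · funext i
      fin_cases i <;> simp [Matrix.mulVec, dotProduct, Fin.sum_univ_two]

theorem exists_dt {u : Fin 2 → F} (hu : u ≠ 0) : ∃ u' : Fin 2 → F, dt u u' ≠ 0 := by
  by_cases h0 : u 0 = 0
  · have h1 : u 1 ≠ 0 := by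
      intro h1
      apply hu
      funext i
      fin_cases i
      · exact h0
      · exact h1
    exact ⟨![1, 0], by simp [dt, h1]⟩
  · exact ⟨![0, 1], by simp [dt, h0]⟩

theorem eq_smul_of_dt {u u' : Fin 2 → F} (hu : u ≠ 0) (h : dt u' u = 0) : ∃ c : F, u' = c • u := by
  unfold dt at h
  by_cases h0 : u 0 = 0
  · have h1 : u 1 ≠ 0 := by
      intro h1
      apply hu
      funext i
      fin_cases i
      · exact h0
      · exact h1
    refine ⟨u' 1 / u 1, ?_⟩
    rw [h0, mul_zero, sub_zero] at h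
    funext i
    fin_cases i
    · simp [h0, (mul_eq_zero.mp h).resolve_right h1]
    · simp [h1]
  · refine ⟨u' 0 / u 0, ?_⟩
    funext i
    fin_cases i
    · simp [h0]
    · simp only [Fin.mk_one, Fin.isValue, Pi.smul_apply, smul_eq_mul]
      field_simp
      linear_combination -h

theorem dt_add_left (u u' v : Fin 2 → F) : dt (u + u') v = dt u v + dt u' v := by
  simp only [dt, Pi.add_apply]; ring

theorem dt_smul_left (c : F) (u v : Fin 2 → F) : dt (c • u) v = c * dt u v := by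
  simp only [dt, Pi.smul_apply, smul_eq_mul]; ring

theorem dt_add_right (u v v' : Fin 2 → F) : dt u (v + v') = dt u v + dt u v' := by
  simp only [dt, Pi.add_apply]; ring

theorem dt_smul_right (c : F) (u v : Fin 2 → F) : dt u (c • v) = c * dt u v := by
  simp only [dt, Pi.smul_apply, smul_eq_mul]; ring

theorem dt_self (u : Fin 2 → F) : dt u u = 0 := by
  simp only [dt]; ring

theorem dt_swap (u v : Fin 2 → F) : dt u v = -dt v u := by
  simp only [dt]; ring

namespace Setup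

theorem tt_form (h : Setup e P B M) (u u' : Fin 2 → F) (w w' : Fin n → F) :
    sympForm m F (tt e P u w) (tt e P u' w') = dt u u' * B w w' := by
  unfold tt
  rw [h.form]
  simp only [map_smul, LinearMap.smul_apply, smul_eq_mul, dt]
  ring

/-- The operators in `Smod` are self-adjoint. -/
theorem adj (h : Setup e P B M) {T : (Fin n → F) →ₗ[F] (Fin n → F)} (hT : T ∈ h.Smod) (x y : Fin n → F) :
    B (T x) y = B x (T y) := by
  obtain ⟨g, hg, e1⟩ := hT
  have hv : ∀ x : Fin n → F, (g : Matrix _ _ F) *ᵥ vec e P ![0, x] = vec e P ![T x, x] := by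
    intro x
    rw [e1, add_mulVec, one_mulVec, up_mulVec, ← vec_add]
    congr 1
    funext i
    fin_cases i
    · simp [LinearMap.toMatrix'_mulVec]
    · simp
  have h1 := sp_form (h.le hg) (vec e P ![0, x]) (vec e P ![0, y])
  rw [hv, hv, h.form, h.form] at h1
  simp only [Matrix.cons_val_zero, Matrix.cons_val_one, map_zero, LinearMap.zero_apply, sub_zero, Matrix.cons_val_fin_one] at h1
  exact sub_eq_zero.mp h1

theorem good (h : Setup e P B M) : Good B h.Smod where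
  two := h.two
  symm := h.symm
  adj := fun T hT x y => h.adj hT x y
  big := h.big
  conj := by
    intro u hu T hT
    obtain ⟨g, hg, e1⟩ := hT
    have hrr : LinearMap.toMatrix' (refl B u) * LinearMap.toMatrix' (refl B u) = 1 := by
      rw [← LinearMap.toMatrix'_comp, ← LinearMap.toMatrix'_id]
      have : refl B u ∘ₗ refl B u = LinearMap.id := LinearMap.ext fun x => refl_refl hu x
      rw [this]
    let r : GL (Fin n) F := ⟨LinearMap.toMatrix' (refl B u), LinearMap.toMatrix' (refl B u), hrr, hrr⟩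
    have hr : tU e P 1 r ∈ M := h.tens 1 (LinearMap.toMatrix' (refl B u)) det_one (by
      intro w w'
      rw [LinearMap.toMatrix'_mulVec, LinearMap.toMatrix'_mulVec, refl_isom h.symm hu]) _ rfl
    refine ⟨tU e P 1 r * g * (tU e P 1 r)⁻¹, M.mul_mem (M.mul_mem hr hg) (M.inv_mem hr), ?_⟩
    rw [Units.val_mul, Units.val_mul, e1, mul_add, mul_one, add_mul, Units.mul_inv, up_eq_tens, tU_conj, inv_one,
      Units.val_one, one_mul, mul_one, up_eq_tens, LinearMap.toMatrix'_comp, LinearMap.toMatrix'_comp, ← mul_assoc]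
    rfl

theorem UU_tt (h : Setup e P B M) {t : Fin n → F} (ht : vee B t t ∈ h.Smod) (u : Fin 2 → F) : UU M (tt e P u t) := by
  by_cases hu : u = 0
  · intro c
    have : tt e P u t = 0 := by
      rw [hu, ← zero_smul F (0 : Fin 2 → F), tt_smul_left, zero_smul]
    rw [this, tGL_zero_left]
    exact M.one_mem
  have h0 : UU M (tt e P ![1, 0] t) := by
    intro c
    obtain ⟨g, hg, e1⟩ := h.Smod.smul_mem (-(c / 2)) ht
    have : g = tGL (tt e P ![1, 0] t) c := by
      apply gl_ext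
      intro v
      obtain ⟨y, rfl⟩ := vec_surj (e := e) (P := P) v
      rw [e1, tGL_mulVec, add_mulVec, one_mulVec, up_mulVec]
      congr 1
      have e2 : sympForm m F (vec e P y) (tt e P ![1, 0] t) = - B (y 1) t := by
        unfold tt
        rw [h.form]
        simp
      rw [e2]
      unfold tt
      rw [← vec_smul]
      congr 1
      have h2 := h.two
      funext i
      fin_cases i
      · simp only [Fin.zero_eta, Fin.isValue, cons_val_zero, LinearMap.toMatrix'_mulVec, LinearMap.smul_apply,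
          vee_apply, Pi.smul_apply, one_smul]
        rw [h.symm t (y 1), ← two_smul F, smul_smul, smul_smul]
        congr 1
        field_simp
      · simp
    rw [← this]
    exact hg
  obtain ⟨a, ha, hau⟩ := exists_sl hu
  have hdet : IsUnit a.det := by rw [ha]; exact isUnit_one
  let A : GL (Fin 2) F := Matrix.nonsingInvUnit a hdet
  have hA : tU e P A 1 ∈ M := h.tens a 1 ha h.one_isom _ rfl
  have h1 := h0.map hA (h.le hA)
  have h2 : ((tU e P A 1 : GL (Fin m ⊕ Fin m) F) : Matrix _ _ F) *ᵥ tt e P ![1, 0] t = tt e P u t := by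
    show Cfsg.Agent.H912.tens e P a 1 *ᵥ _ = _
    rw [tens_tt, hau, one_mulVec]
  rw [h2] at h1
  exact h1

/-- **All transvections.** -/
theorem UU_all (h : Setup e P B M) {e₀ e' z : Fin n → F} (h00 : B e₀ e₀ = 0) (h11 : B e' e' = 0) (h01 : B e₀ e' = 1)
    (h0z : B e₀ z = 0) (h1z : B e' z = 0) (hzz : B z z ≠ 0)
    (hspan : ∀ w : Fin n → F, ∃ α β γ : F, w = α • e₀ + β • e' + γ • z)
    (hv : ∀ t, B t t = 0 → (t = e₀ ∨ B e₀ t ≠ 0) → vee B t t ∈ h.Smod) (v : Fin m ⊕ Fin m → F) : UU M v := by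
  have h10 : B e' e₀ = 1 := by rw [h.symm, h01]
  have hz0 : B z e₀ = 0 := by rw [h.symm, h0z]
  have hz1 : B z e' = 0 := by rw [h.symm, h1z]
  have u0 : ∀ u, UU M (tt e P u e₀) := fun u => h.UU_tt (hv e₀ h00 (Or.inl rfl)) u
  have u1 : ∀ u, UU M (tt e P u e') := fun u => h.UU_tt (hv e' h11 (Or.inr (by rw [h01]; exact one_ne_zero))) u
  -- the special vectors
  set W : F → (Fin n → F) := fun s => e' + s • z + (-(s * s * B z z / 2)) • e₀ with hW
  have h2 := h.two
  have hWW : ∀ s, B (W s) (W s) = 0 := by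
    intro s
    simp only [hW, map_add, map_smul, LinearMap.add_apply, LinearMap.smul_apply, smul_eq_mul, h00, h01, h11, h10, h0z, h1z,
      hz0, hz1]
    field_simp
    ring
  have h0W : ∀ s, B e₀ (W s) = 1 := by
    intro s
    simp only [hW, map_add, map_smul, smul_eq_mul, h00, h01, h0z]
    ring
  have h1W : ∀ s, B e' (W s) = -(s * s * B z z / 2) := by
    intro s
    simp only [hW, map_add, map_smul, smul_eq_mul, h11, h10, h1z]
    ring
  have hzW : ∀ s, B z (W s) = s * B z z := by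
    intro s
    simp only [hW, map_add, map_smul, smul_eq_mul, hz1, hz0]
    ring
  have uW : ∀ s u, UU M (tt e P u (W s)) := fun s u => h.UU_tt (hv _ (hWW s) (Or.inr (by rw [h0W]; exact one_ne_zero))) u
  -- step ii
  have st2 : ∀ u₁ u₂, UU M (tt e P u₁ e₀ + tt e P u₂ e') := by
    have st2a : ∀ u₁ u₂, dt u₁ u₂ ≠ 0 → UU M (tt e P u₁ e₀ + tt e P u₂ e') := by
      intro u₁ u₂ hd
      have := (u0 u₁).add (u1 u₂) (by rw [h.tt_form, h01, mul_one]; exact hd) 1 1
      rwa [one_smul, one_smul] at this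
    intro u₁ u₂
    by_cases hd : dt u₁ u₂ = 0
    · by_cases hu2 : u₂ = 0
      · have : tt e P u₂ e' = 0 := by
          rw [hu2, ← zero_smul F (0 : Fin 2 → F), tt_smul_left, zero_smul]
        rw [this, add_zero]
        exact u0 u₁
      · obtain ⟨u, hu⟩ := exists_dt hu2
        have hy := st2a (u₁ + u) u₂ (by rw [dt_add_left, hd, zero_add, dt_swap]; exact neg_ne_zero.mpr hu)
        have := hy.add (u0 u) (by
          rw [sympForm_add_left, h.tt_form, h.tt_form, h00, h10, mul_zero, zero_add, mul_one]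
          exact hu) 1 (-1)
        rw [one_smul, neg_one_smul, tt_add_left] at this
        convert this using 1
        abel
    · exact st2a u₁ u₂ hd
  -- step iii
  have st3 : ∀ u₁ u₂ u₃, (dt u₁ u₃ ≠ 0 ∨ dt u₂ u₃ ≠ 0) → UU M (tt e P u₁ e₀ + tt e P u₂ e' + tt e P u₃ z) := by
    intro u₁ u₂ u₃ hd
    obtain ⟨s, hs0, hs⟩ : ∃ s : F, s ≠ 0 ∧ dt u₁ u₃ + dt u₂ u₃ * (-(s * s * B z z / 2)) ≠ 0 := by
      by_contra hno
      push Not at hno
      obtain ⟨t, ht0, ht⟩ := h.big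
      have e1 := hno 1 one_ne_zero
      have e2 := hno t ht0
      have e3 : (t * t - 1) * (dt u₂ u₃ * B z z) = 0 := by
        field_simp at e1 e2
        linear_combination e1 - e2
      have e4 : dt u₂ u₃ = 0 :=
        (mul_eq_zero.mp ((mul_eq_zero.mp e3).resolve_left (sub_ne_zero.mpr ht))).resolve_right hzz
      rw [e4, zero_mul, add_zero] at e1
      rcases hd with hd | hd
      · exact hd e1
      · exact hd e4
    have hx := st2 (u₁ + (s * B z z / 2) • u₃) (u₂ + (-s⁻¹) • u₃)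
    have := hx.add (uW s u₃) (by
      rw [sympForm_add_left, h.tt_form, h.tt_form, dt_add_left, dt_add_left, dt_smul_left, dt_smul_left, dt_self,
        mul_zero, mul_zero, add_zero, add_zero, h0W, h1W, mul_one]
      exact hs) 1 s⁻¹
    convert this using 1
    simp only [hW, tt_add_left, tt_smul_left, tt_add_right, tt_smul_right]
    match_scalars <;> field_simp <;> ring
  -- step iv
  obtain ⟨y, rfl⟩ := vec_surj (e := e) (P := P) v
  obtain ⟨a0, b0, c0, hy0⟩ := hspan (y 0)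
  obtain ⟨a1, b1, c1, hy1⟩ := hspan (y 1)
  have hyv : vec e P y = tt e P ![a0, a1] e₀ + tt e P ![b0, b1] e' + tt e P ![c0, c1] z := by
    unfold tt
    rw [← vec_add, ← vec_add]
    congr 1
    funext i
    fin_cases i
    · exact hy0
    · exact hy1
  rw [hyv]
  generalize (![a0, a1] : Fin 2 → F) = u₁
  generalize (![b0, b1] : Fin 2 → F) = u₂
  generalize (![c0, c1] : Fin 2 → F) = u₃
  by_cases hd : dt u₁ u₃ ≠ 0 ∨ dt u₂ u₃ ≠ 0
  · exact st3 u₁ u₂ u₃ hd
  push Not at hd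
  by_cases hu3 : u₃ = 0
  · have : tt e P u₃ z = 0 := by
      rw [hu3, ← zero_smul F (0 : Fin 2 → F), tt_smul_left, zero_smul]
    rw [this, add_zero]
    exact st2 u₁ u₂
  obtain ⟨α, rfl⟩ := eq_smul_of_dt hu3 hd.1
  obtain ⟨β, rfl⟩ := eq_smul_of_dt hu3 hd.2
  obtain ⟨u, hu⟩ := exists_dt hu3
  have hu' : dt u u₃ ≠ 0 := by rw [dt_swap]; exact neg_ne_zero.mpr hu
  by_cases hβ : β = 0
  · by_cases hα : α = 0
    · -- `w₁`
      have hy := st3 ((-(B z z / 2)) • u) u (u₃ + u) (Or.inr (by rw [dt_add_right, dt_self, add_zero]; exact hu'))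
      have := hy.add (uW 1 u) (by
        rw [sympForm_add_left, sympForm_add_left, h.tt_form, h.tt_form, h.tt_form, dt_smul_left, dt_self, dt_add_left,
          dt_self, mul_zero, zero_mul, zero_mul, hzW, zero_add, zero_add, add_zero, one_mul]
        exact mul_ne_zero hu hzz) 1 (-1)
      convert this using 1
      simp only [hW, tt_add_left, tt_smul_left, tt_add_right, tt_smul_right, hα, hβ]
      match_scalars <;> field_simp <;> ring
    · have hy := st3 (α • u₃) (β • u₃ + u) u₃ (Or.inr (by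
        rw [dt_add_left, dt_smul_left, dt_self, mul_zero, zero_add]; exact hu'))
      have := hy.add (u1 u) (by
        rw [sympForm_add_left, sympForm_add_left, h.tt_form, h.tt_form, h.tt_form, h01, h11, hz1, mul_zero, mul_zero,
          add_zero, add_zero, mul_one, dt_smul_left]
        exact mul_ne_zero hα hu) 1 (-1)
      convert this using 1
      simp only [tt_add_left, tt_smul_left, one_smul, neg_one_smul]
      abel
  · have hy := st3 (α • u₃ + u) (β • u₃) u₃ (Or.inl (by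
      rw [dt_add_left, dt_smul_left, dt_self, mul_zero, zero_add]; exact hu'))
    have := hy.add (u0 u) (by
      rw [sympForm_add_left, sympForm_add_left, h.tt_form, h.tt_form, h.tt_form, h00, h10, hz0, mul_zero, mul_zero,
        zero_add, add_zero, mul_one, dt_smul_left]
      exact mul_ne_zero hβ hu) 1 (-1)
    convert this using 1
    simp only [tt_add_left, tt_smul_left, one_smul, neg_one_smul]
    abel

end Setup

end Cfsg.Agent.H914.TensModel
end

-- part: H914/TensRoot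
section
/-!
# Overgroups of `SL₂ ⊗ O₃` in the symplectic group: the root elements (helper914)
-/

set_option autoImplicit false
set_option linter.unusedSectionVars false

open Cfsg Cfsg.Geo Matrix
open scoped Matrix MatrixGroups Kronecker

namespace Cfsg.Agent.H914.TensModel

open Cfsg.Agent.H912 Cfsg.Agent.H910 Cfsg.Agent.ClassicalGeometry.SympBasic Cfsg.Agent.H876 Cfsg.Agent.S5652
open Cfsg.Agent.H914.SymOps Cfsg.Agent.H914.RootPair

variable {F : Type*} [Field F] {m n : ℕ}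
variable {e : Fin m ⊕ Fin m ≃ Fin 2 × Fin n} {P : GL (Fin m ⊕ Fin m) F}
    {B : LinearMap.BilinForm F (Fin n → F)} {M : Subgroup (GL (Fin m ⊕ Fin m) F)}

/-- A skew operator with square zero on a three-dimensional orthogonal space is zero. -/
theorem skew_nil_zero {W : Type*} [AddCommGroup W] [Module F W] [Module.Finite F W] (hd : Module.finrank F W ≤ 3)
    {B : LinearMap.BilinForm F W} (h2 : (2 : F) ≠ 0) (hs : ∀ x y, B x y = B y x) (hnd : ∀ x, (∀ y, B x y = 0) → x = 0)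
    {α : W →ₗ[F] W} (hα : ∀ x, α (α x) = 0) (hsk : ∀ x y, B (α x) y = -B x (α y)) (x : W) : α x = 0 := by
  have hle : LinearMap.range α ≤ LinearMap.ker α := by
    rintro _ ⟨y, rfl⟩
    exact hα y
  have h1 : Module.finrank F (LinearMap.range α) ≤ 1 := by
    have e1 := Submodule.finrank_mono hle
    have e2 := LinearMap.finrank_range_add_finrank_ker α
    omega
  obtain ⟨⟨z, hz⟩, hz'⟩ := finrank_le_one_iff.mp h1
  have key : ∀ y, ∃ c : F, α y = c • z := by
    intro y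
    obtain ⟨c, hc⟩ := hz' ⟨α y, y, rfl⟩
    exact ⟨c, (congrArg Subtype.val hc).symm⟩
  have hself : ∀ y, B (α y) y = 0 := by
    intro y
    have e1 := hsk y y
    rw [hs y (α y)] at e1
    have : (2 : F) * B (α y) y = 0 := by linear_combination e1
    exact (mul_eq_zero.mp this).resolve_left h2
  by_contra hx
  obtain ⟨c, hc⟩ := key x
  have hz0 : z ≠ 0 := by
    rintro rfl
    rw [smul_zero] at hc
    exact hx hc
  obtain ⟨y, hy⟩ : ∃ y, B z y ≠ 0 := by
    by_contra hno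
    push Not at hno
    exact hz0 (hnd z hno)
  have hk : ∀ y', B z y' ≠ 0 → α y' = 0 := by
    intro y' hy'
    obtain ⟨d, hd'⟩ := key y'
    have e1 := hself y'
    rw [hd', map_smul, LinearMap.smul_apply, smul_eq_mul] at e1
    rw [hd', (mul_eq_zero.mp e1).resolve_right hy', zero_smul]
  by_cases hzx : B z x = 0
  · have e1 := hk (y + x) (by rw [map_add, hzx, add_zero]; exact hy)
    rw [map_add, hk y hy, zero_add] at e1
    exact hx e1
  · exact hx (hk x hzx)

/-- The root elements. -/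
def rootS (e : Fin m ⊕ Fin m ≃ Fin 2 × Fin n) (P : GL (Fin m ⊕ Fin m) F) (M : Subgroup (GL (Fin m ⊕ Fin m) F)) :
    Set (Matrix (Fin m ⊕ Fin m) (Fin m ⊕ Fin m) F) :=
  {N | ∃ g ∈ M, ∃ c : F, c ≠ 0 ∧ N = c • ((g : Matrix _ _ F) * up e P 1 * ((g⁻¹ : GL (Fin m ⊕ Fin m) F) : Matrix _ _ F))}

theorem conj_mul_conj (g : GL (Fin m ⊕ Fin m) F) (x y : Matrix (Fin m ⊕ Fin m) (Fin m ⊕ Fin m) F) :
    ((g : Matrix _ _ F) * x * ((g⁻¹ : GL (Fin m ⊕ Fin m) F) : Matrix _ _ F)) *
      ((g : Matrix _ _ F) * y * ((g⁻¹ : GL (Fin m ⊕ Fin m) F) : Matrix _ _ F)) =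
      (g : Matrix _ _ F) * (x * y) * ((g⁻¹ : GL (Fin m ⊕ Fin m) F) : Matrix _ _ F) := by
  exact ((conjA g).map_mul x y).symm

theorem conj_eq_iff {g : GL (Fin m ⊕ Fin m) F} {x y : Matrix (Fin m ⊕ Fin m) (Fin m ⊕ Fin m) F} :
    (g : Matrix _ _ F) * x * ((g⁻¹ : GL (Fin m ⊕ Fin m) F) : Matrix _ _ F) =
      (g : Matrix _ _ F) * y * ((g⁻¹ : GL (Fin m ⊕ Fin m) F) : Matrix _ _ F) ↔ x = y :=
  (conjA g).injective.eq_iff

theorem conj_surj (g : GL (Fin m ⊕ Fin m) F) (x : Matrix (Fin m ⊕ Fin m) (Fin m ⊕ Fin m) F) :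
    ∃ y, x = (g : Matrix _ _ F) * y * ((g⁻¹ : GL (Fin m ⊕ Fin m) F) : Matrix _ _ F) :=
  ⟨(conjA g).symm x, ((conjA g).apply_symm_apply x).symm⟩

/-- The blocks of an element commuting with `up 1`. -/
theorem blocks_of_comm {x : Matrix (Fin m ⊕ Fin m) (Fin m ⊕ Fin m) F} (hx : x * up e P 1 = up e P 1 * x) :
    ∃ α β : Matrix (Fin n) (Fin n) F, x = blk e P !![α, β; 0, α] := by
  obtain ⟨X, rfl⟩ := (blk e P).surjective x
  rw [up, ← map_mul, ← map_mul] at hx
  have h1 := (blk e P).injective hx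
  have e00 := congrFun (congrFun h1 0) 0
  have e01 := congrFun (congrFun h1 0) 1
  simp [Matrix.mul_apply, Fin.sum_univ_two] at e00 e01
  refine ⟨X 0 0, X 0 1, ?_⟩
  congr 1
  ext i j : 1
  fin_cases i <;> fin_cases j
  · rfl
  · rfl
  · exact e00.symm
  · exact e01.symm

theorem blk_eq_iff {X Y : Matrix (Fin 2) (Fin 2) (Matrix (Fin n) (Fin n) F)} : blk e P X = blk e P Y ↔ X = Y :=
  (blk e P).injective.eq_iff

theorem one_add_up (c : F) : (1 : Matrix (Fin m ⊕ Fin m) (Fin m ⊕ Fin m) F) + c • up e P 1 = tens e P !![1, c; 0, 1] 1 := by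
  rw [← blk_tens, up, ← map_smul, ← map_one (blk e P), ← map_add]
  congr 1
  ext i j : 1
  fin_cases i <;> fin_cases j <;> simp

theorem up_one_ne [NeZero n] : up e P (1 : Matrix (Fin n) (Fin n) F) ≠ 0 := by
  intro h
  rw [up, ← map_zero (blk e P)] at h
  have := congrFun (congrFun ((blk e P).injective h) 0) 1
  simp at this

namespace Setup

theorem root_mem (h : Setup e P B M) {N : Matrix (Fin m ⊕ Fin m) (Fin m ⊕ Fin m) F} (hN : N ∈ rootS e P M)
    (u : GL (Fin m ⊕ Fin m) F) (hu : (u : Matrix _ _ F) = 1 + N) : u ∈ M := by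
  obtain ⟨g, hg, c, hc, rfl⟩ := hN
  let a : GL (Fin 2) F := ⟨!![1, c; 0, 1], !![1, -c; 0, 1], by
    ext i j; fin_cases i <;> fin_cases j <;> simp, by
    ext i j; fin_cases i <;> fin_cases j <;> simp⟩
  have ha : tU e P a 1 ∈ M := h.tens a 1 (by simp [a]) h.one_isom _ rfl
  have : u = g * tU e P a 1 * g⁻¹ := by
    apply Units.ext
    rw [hu, Units.val_mul, Units.val_mul]
    show _ = (g : Matrix _ _ F) * H912.tens e P !![1, c; 0, 1] 1 * _
    rw [← one_add_up, mul_add, mul_one, add_mul, Units.mul_inv, mul_smul_comm, smul_mul_assoc]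
  rw [this]
  exact M.mul_mem (M.mul_mem hg ha) (M.inv_mem hg)

theorem root_conj {g : GL (Fin m ⊕ Fin m) F} (hg : g ∈ M) {N : Matrix (Fin m ⊕ Fin m) (Fin m ⊕ Fin m) F}
    (hN : N ∈ rootS e P M) :
    (g : Matrix _ _ F) * N * ((g⁻¹ : GL (Fin m ⊕ Fin m) F) : Matrix _ _ F) ∈ rootS e P M := by
  obtain ⟨g', hg', c, hc, rfl⟩ := hN
  refine ⟨g * g', M.mul_mem hg hg', c, hc, ?_⟩
  rw [mul_smul_comm, smul_mul_assoc, Units.val_mul, _root_.mul_inv_rev, Units.val_mul]
  simp only [mul_assoc]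

theorem root_smul {N : Matrix (Fin m ⊕ Fin m) (Fin m ⊕ Fin m) F} (hN : N ∈ rootS e P M) {c : F} (hc : c ≠ 0) :
    c • N ∈ rootS e P M := by
  obtain ⟨g, hg, d, hd, rfl⟩ := hN
  exact ⟨g, hg, c * d, mul_ne_zero hc hd, by rw [smul_smul]⟩

theorem root_sq {N : Matrix (Fin m ⊕ Fin m) (Fin m ⊕ Fin m) F} (hN : N ∈ rootS e P M) : N * N = 0 := by
  obtain ⟨g, hg, d, hd, rfl⟩ := hN
  rw [smul_mul_smul_comm, conj_mul_conj, up_mul, mul_zero, zero_mul, smul_zero]

/-- The element `up 1` is a root element. -/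
theorem up_mem : up e P 1 ∈ rootS e P M :=
  ⟨1, M.one_mem, 1, one_ne_zero, by rw [one_smul, inv_one, Units.val_one, one_mul, mul_one]⟩

/-- Root elements commuting with `up 1`. -/
theorem comm_up (h : Setup e P B M) (hn : n ≤ 3) (hsc : ∀ T ∈ h.Smod, ∃ c : F, ∀ w, T w = c • w)
    {N : Matrix (Fin m ⊕ Fin m) (Fin m ⊕ Fin m) F} (hN : N ∈ rootS e P M) (hc : N * up e P 1 = up e P 1 * N) :
    ∃ c : F, N = c • up e P 1 := by
  obtain ⟨α, β, hX⟩ := blocks_of_comm hc
  have hsq := root_sq hN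
  -- `1 + N` and `1 - N` are isometries
  have hiso : ∀ c : F, c ≠ 0 → ∀ x y, B (x + c • (α *ᵥ x)) (y + c • (α *ᵥ y)) = B x y := by
    intro c hc x y
    have hcN := root_smul hN hc
    have hu := h.root_mem hcN (unip (c • N) (by rw [smul_mul_smul_comm, hsq, smul_zero])) rfl
    have h1 := sp_form (h.le hu) (vec e P ![x, 0]) (vec e P ![0, y])
    have h2 : ∀ y' : Fin 2 → Fin n → F, ((unip (c • N) (by rw [smul_mul_smul_comm, hsq, smul_zero]) : GL (Fin m ⊕ Fin m) F) : Matrix _ _ F) *ᵥ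
        vec e P y' = vec e P ![y' 0 + c • (α *ᵥ y' 0 + β *ᵥ y' 1), y' 1 + c • (α *ᵥ y' 1)] := by
      intro y'
      show (1 + c • N) *ᵥ _ = _
      rw [add_mulVec, one_mulVec, smul_mulVec, hX, blk_mulVec, ← vec_smul, ← vec_add]
      congr 1
      funext i
      fin_cases i
      · simp [Fin.sum_univ_two]
      · simp [Fin.sum_univ_two]
    rw [h2, h2, h.form, h.form] at h1
    simpa using h1
  have hsk : ∀ x y, B (α *ᵥ x) y = -B x (α *ᵥ y) := by
    intro x y
    have e1 := hiso 1 one_ne_zero x y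
    have e2 := hiso (-1) (neg_ne_zero.mpr one_ne_zero) x y
    simp only [map_add, map_smul, LinearMap.add_apply, LinearMap.smul_apply, smul_eq_mul] at e1 e2
    have : (2 : F) * (B (α *ᵥ x) y + B x (α *ᵥ y)) = 0 := by linear_combination e1 - e2
    exact eq_neg_of_add_eq_zero_left ((mul_eq_zero.mp this).resolve_left h.two)
  have hαα : α * α = 0 := by
    rw [hX, ← map_mul, ← map_zero (blk e P)] at hsq
    have := congrFun (congrFun ((blk e P).injective hsq) 0) 0
    simpa [Matrix.mul_apply, Fin.sum_univ_two] using this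
  have hα0 : α = 0 := by
    have h1 := skew_nil_zero (W := Fin n → F) (by rw [Module.finrank_fin_fun]; exact hn) h.two h.symm h.nd
      (α := Matrix.toLin' α) (by
        intro x
        rw [Matrix.toLin'_apply, Matrix.toLin'_apply, mulVec_mulVec, hαα, zero_mulVec]) (by
        intro x y
        rw [Matrix.toLin'_apply, Matrix.toLin'_apply]
        exact hsk x y)
    apply Matrix.toLin'.injective
    rw [map_zero]
    exact LinearMap.ext h1
  rw [hα0] at hX
  have hXu : N = up e P β := hX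
  have hu := h.root_mem hN (unip N hsq) rfl
  have hβ : Matrix.toLin' β ∈ h.Smod := ⟨unip N hsq, hu, by
    rw [LinearMap.toMatrix'_toLin', ← hXu]
    rfl⟩
  obtain ⟨c, hc⟩ := hsc _ hβ
  refine ⟨c, ?_⟩
  rw [hXu, ← up_smul]
  congr 1
  apply Matrix.toLin'.injective
  apply LinearMap.ext
  intro w
  rw [hc, Matrix.toLin'_apply, smul_mulVec, one_mulVec]

theorem aeval_up {x : Matrix (Fin m ⊕ Fin m) (Fin m ⊕ Fin m) F} {α : Matrix (Fin n) (Fin n) F}
    (hx : ∀ γ, x * up e P γ = up e P (α * γ)) (p : Polynomial F) (γ : Matrix (Fin n) (Fin n) F) :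
    Polynomial.aeval x p * up e P γ = up e P (Polynomial.aeval α p * γ) := by
  induction p using Polynomial.induction_on' generalizing γ with
  | add p q hp hq => rw [map_add, map_add, add_mul, add_mul, hp, hq, up_add]
  | monomial k c =>
    rw [Polynomial.aeval_monomial, Polynomial.aeval_monomial, Algebra.algebraMap_eq_smul_one,
      Algebra.algebraMap_eq_smul_one, smul_mul_assoc, smul_mul_assoc, smul_mul_assoc, smul_mul_assoc, one_mul, one_mul,
      up_smul]
    congr 1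
    induction k generalizing γ with
    | zero => rw [pow_zero, pow_zero, one_mul, one_mul]
    | succ k ih => rw [pow_succ, pow_succ, mul_assoc, hx, ih, mul_assoc]

/-- The root elements satisfy the axioms. -/
theorem rootSet (h : Setup e P B M) (hn : n ≤ 3) (hsc : ∀ T ∈ h.Smod, ∃ c : F, ∀ w, T w = c • w) :
    RootSet F M (rootS e P M) where
  sq := fun N hN => root_sq hN
  smul := fun N hN c hc => root_smul hN hc
  conj := fun g hg N hN => root_conj hg hN
  mem := fun N hN g hg => h.root_mem hN g hg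
  comm := by
    intro N hN N' hN' hNN
    obtain ⟨g, hg, c, hc, rfl⟩ := hN
    have h1 := root_conj (M.inv_mem hg) hN'
    rw [inv_inv] at h1
    obtain ⟨x, rfl⟩ := conj_surj g N'
    have e1 : ((g⁻¹ : GL (Fin m ⊕ Fin m) F) : Matrix _ _ F) * ((g : Matrix _ _ F) * x * ((g⁻¹ : GL (Fin m ⊕ Fin m) F) : Matrix _ _ F)) * (g : Matrix _ _ F) = x := by
      rw [← mul_assoc, ← mul_assoc, Units.inv_mul, one_mul, mul_assoc, Units.inv_mul, mul_one]
    rw [e1] at h1
    rw [smul_mul_assoc, mul_smul_comm, conj_mul_conj, conj_mul_conj] at hNN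
    have e2 := conj_eq_iff.mp (smul_right_injective _ hc hNN)
    obtain ⟨μ, hμ⟩ := h.comm_up hn hsc h1 e2.symm
    refine ⟨μ * c⁻¹, ?_⟩
    rw [hμ, mul_smul_comm, smul_mul_assoc, smul_smul, mul_assoc μ, inv_mul_cancel₀ hc, mul_one]
  ker := by
    intro N hN f hf hfN hf0
    obtain ⟨g, hg, c, hc, rfl⟩ := hN
    obtain ⟨x, rfl⟩ := conj_surj g f
    rw [conj_mul_conj, conj_eq_iff] at hf
    rw [smul_mul_assoc, mul_smul_comm, conj_mul_conj, conj_mul_conj] at hfN
    have hfN := conj_eq_iff.mp (smul_right_injective _ hc hfN)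
    have hone : (1 : Matrix (Fin m ⊕ Fin m) (Fin m ⊕ Fin m) F) = (g : Matrix _ _ F) * 1 * ((g⁻¹ : GL (Fin m ⊕ Fin m) F) : Matrix _ _ F) := by
      rw [mul_one, Units.mul_inv]
    obtain ⟨α, β, rfl⟩ := blocks_of_comm hfN
    have e1 : (1 - blk e P !![α, β; 0, α]) * up e P 1 = 0 := by
      rw [hone, mul_smul_comm, ← sub_mul, ← mul_sub, conj_mul_conj] at hf0
      have h3 := (smul_eq_zero.mp hf0).resolve_left hc
      have h4 : (g : Matrix _ _ F) * ((1 - blk e P !![α, β; 0, α]) * up e P 1) * ((g⁻¹ : GL (Fin m ⊕ Fin m) F) : Matrix _ _ F) =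
          (g : Matrix _ _ F) * 0 * ((g⁻¹ : GL (Fin m ⊕ Fin m) F) : Matrix _ _ F) := by rw [h3, mul_zero, zero_mul]
      exact conj_eq_iff.mp h4
    have hα : α = 1 := by
      rw [up, ← map_one (blk e P), ← map_sub, ← map_mul, ← map_zero (blk e P)] at e1
      have := congrFun (congrFun ((blk e P).injective e1) 0) 1
      simp [Matrix.mul_apply, Fin.sum_univ_two] at this
      exact (sub_eq_zero.mp this).symm
    subst hα
    have hβ : β = 0 := by
      rw [← map_mul] at hf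
      have := congrFun (congrFun ((blk e P).injective hf) 0) 1
      simpa [Matrix.mul_apply, Fin.sum_univ_two] using this
    subst hβ
    have h5 : blk e P !![(1 : Matrix (Fin n) (Fin n) F), 0; 0, 1] = 1 := by
      rw [← map_one (blk e P)]
      congr 1
      ext i j : 1
      fin_cases i <;> fin_cases j <;> rfl
    rw [h5, ← hone]
  deg := by
    intro N hN Z hZ
    obtain ⟨g, hg, c, hc, rfl⟩ := hN
    obtain ⟨x, rfl⟩ := conj_surj g Z
    rw [smul_mul_assoc, mul_smul_comm, conj_mul_conj, conj_mul_conj] at hZ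
    have hZ := conj_eq_iff.mp (smul_right_injective _ hc hZ)
    obtain ⟨α, β, rfl⟩ := blocks_of_comm hZ
    refine ⟨α.charpoly, (Matrix.charpoly_monic α).ne_zero, ?_, ?_⟩
    · rw [Matrix.charpoly_natDegree_eq_dim, Fintype.card_fin]
      exact hn
    · have e1 : Polynomial.aeval ((g : Matrix _ _ F) * blk e P !![α, β; 0, α] * ((g⁻¹ : GL (Fin m ⊕ Fin m) F) : Matrix _ _ F)) α.charpoly =
          (g : Matrix _ _ F) * Polynomial.aeval (blk e P !![α, β; 0, α]) α.charpoly * ((g⁻¹ : GL (Fin m ⊕ Fin m) F) : Matrix _ _ F) :=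
        Polynomial.aeval_algHom_apply (conjA g) _ _
      rw [e1, mul_smul_comm, conj_mul_conj]
      have e2 : Polynomial.aeval (blk e P !![α, β; 0, α]) α.charpoly * up e P 1 = 0 := by
        rw [aeval_up (α := α), Matrix.aeval_self_charpoly, zero_mul, ← zero_smul F (1 : Matrix (Fin n) (Fin n) F), up_smul, zero_smul]
        intro γ
        rw [up, up, ← map_mul]
        congr 1
        ext i j : 1
        fin_cases i <;> fin_cases j <;> simp [Matrix.mul_apply, Fin.sum_univ_two]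
      rw [e2, mul_zero, zero_mul, smul_zero]

/-- Conjugates of `up 1` by elements of `SL₂ ⊗ 1`. -/
theorem tens_mem_root (h : Setup e P B M) {a b x : Matrix (Fin 2) (Fin 2) F} (ha : a.det = 1) (hab : a * b = 1) (hba : b * a = 1)
    (hx : a * !![0, 1; 0, 0] * b = x) : H912.tens e P x 1 ∈ rootS e P M := by
  let A : GL (Fin 2) F := ⟨a, b, hab, hba⟩
  have hA : tU e P A 1 ∈ M := h.tens a 1 ha h.one_isom _ rfl
  refine ⟨tU e P A 1, hA, 1, one_ne_zero, ?_⟩
  rw [one_smul, up_eq_tens, tU_conj, inv_one, Units.val_one, one_mul, mul_one]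
  congr 1
  exact hx.symm

/-- The root elements lie in `M₂ ⊗ 1`. -/
theorem root_le (h : Setup e P B M) (hn : n ≤ 3) (hsc : ∀ T ∈ h.Smod, ∃ c : F, ∀ w, T w = c • w)
    (hk2 : ringChar F ≠ 2) (hk3 : Nat.card F ≠ 3) {N : Matrix (Fin m ⊕ Fin m) (Fin m ⊕ Fin m) F}
    (hN : N ∈ rootS e P M) : N ∈ tensAlg e P := by
  have hR := h.rootSet hn hsc
  have m1 : H912.tens e P !![0, 1; 0, 0] 1 ∈ rootS e P M := by rw [← up_eq_tens]; exact up_mem
  have m2 : H912.tens e P !![0, 0; -1, 0] 1 ∈ rootS e P M :=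
    h.tens_mem_root (a := !![0, 1; -1, 0]) (b := !![0, -1; 1, 0]) (by simp [det_fin_two_of])
      (by ext i j; fin_cases i <;> fin_cases j <;> simp) (by ext i j; fin_cases i <;> fin_cases j <;> simp)
      (by ext i j; fin_cases i <;> fin_cases j <;> simp)
  have m3 : H912.tens e P !![-1, 1; -1, 1] 1 ∈ rootS e P M :=
    h.tens_mem_root (a := !![1, 0; 1, 1]) (b := !![1, 0; -1, 1]) (by simp [det_fin_two_of])
      (by ext i j; fin_cases i <;> fin_cases j <;> simp) (by ext i j; fin_cases i <;> fin_cases j <;> simp)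
      (by ext i j; fin_cases i <;> fin_cases j <;> simp)
  have hprop : ∀ x : Matrix (Fin 2) (Fin 2) F, (∃ c : F, N = c • H912.tens e P x 1) → N ∈ tensAlg e P := by
    rintro x ⟨c, rfl⟩
    exact (tensAlg e P).smul_mem ⟨x, rfl⟩ c
  by_cases c1 : ∃ c : F, N = c • H912.tens e P !![0, 1; 0, 0] 1
  · exact hprop _ c1
  by_cases c2 : ∃ c : F, N = c • H912.tens e P !![0, 0; -1, 0] 1
  · exact hprop _ c2
  by_cases c3 : ∃ c : F, N = c • H912.tens e P !![-1, 1; -1, 1] 1
  · exact hprop _ c3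
  obtain ⟨a1, -, h1⟩ := hR.anticomm_scalar hk2 hk3 h.big m1 hN c1
  obtain ⟨a2, -, h2⟩ := hR.anticomm_scalar hk2 hk3 h.big m2 hN c2
  obtain ⟨a3, -, h3⟩ := hR.anticomm_scalar hk2 hk3 h.big m3 hN c3
  obtain ⟨X, rfl⟩ := (blk e P).surjective N
  rw [← blk_tens, ← map_mul, ← map_mul, ← map_add, ← map_one (blk e P), ← map_smul, blk_eq_iff] at h1 h2 h3
  have e100 := congrFun (congrFun h1 0) 0
  have e101 := congrFun (congrFun h1 0) 1
  have e200 := congrFun (congrFun h2 0) 0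
  have e300 := congrFun (congrFun h3 0) 0
  simp [Matrix.mul_apply, Fin.sum_univ_two] at e100 e101 e200 e300
  -- the blocks
  have f10 : X 1 0 = a1 • 1 := e100
  have f01 : X 0 1 = (-a2) • 1 := by
    rw [neg_smul, ← e200, neg_neg]
  have h20 := h.two
  have f00 : X 0 0 = ((a1 + a2 - a3) / 2) • 1 := by
    have e4 : (2 : F) • X 0 0 = (a1 + a2 - a3) • (1 : Matrix (Fin n) (Fin n) F) := by
      have : (2 : F) • X 0 0 = X 1 0 - X 0 1 - a3 • 1 := by
        rw [← e300]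
        module
      rw [this, f10, f01]
      module
    have e5 := congrArg (fun t => (2 : F)⁻¹ • t) e4
    simp only [smul_smul, inv_mul_cancel₀ h20, one_smul] at e5
    rw [e5, div_eq_inv_mul]
  have f11 : X 1 1 = (-((a1 + a2 - a3) / 2)) • 1 := by
    rw [neg_smul, ← f00]
    exact eq_neg_of_add_eq_zero_left e101
  refine ⟨!![(a1 + a2 - a3) / 2, -a2; a1, -((a1 + a2 - a3) / 2)], ?_⟩
  rw [← blk_tens]
  congr 1
  ext i j : 1
  fin_cases i <;> fin_cases j
  · exact f00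
  · exact f01
  · exact f10
  · exact f11

/-- **The overgroups with scalar `Smod`** normalise `M₂ ⊗ 1`. -/
theorem le_of_scalar (h : Setup e P B M) (hn0 : 0 < n) (hn : n ≤ 3) (hsc : ∀ T ∈ h.Smod, ∃ c : F, ∀ w, T w = c • w)
    (hk2 : ringChar F ≠ 2) (hk3 : Nat.card F ≠ 3) : M ≤ tensorProductSubgroup 2 n e P := by
  refine le_tensorProductSubgroup (A := tensAlg e P) (by norm_num) hn0 (fun x => mem_tensAlg) ?_
  intro g hg x hx
  obtain ⟨a, rfl⟩ := mem_tensAlg.mp hx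
  have m1 : H912.tens e P !![0, 1; 0, 0] 1 ∈ rootS e P M := by rw [← up_eq_tens]; exact up_mem
  have m2 : H912.tens e P !![0, 0; -1, 0] 1 ∈ rootS e P M :=
    h.tens_mem_root (a := !![0, 1; -1, 0]) (b := !![0, -1; 1, 0]) (by simp [det_fin_two_of])
      (by ext i j; fin_cases i <;> fin_cases j <;> simp) (by ext i j; fin_cases i <;> fin_cases j <;> simp)
      (by ext i j; fin_cases i <;> fin_cases j <;> simp)
  have n1 := h.root_le hn hsc hk2 hk3 (root_conj hg m1)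
  have n2 := h.root_le hn hsc hk2 hk3 (root_conj hg m2)
  have n12 := (tensAlg e P).mul_mem n1 n2
  have n21 := (tensAlg e P).mul_mem n2 n1
  rw [conj_mul_conj, tens_mul, one_mul] at n12 n21
  have key : H912.tens e P a 1 = (-(a 0 0)) • H912.tens e P (!![0, 1; 0, 0] * !![0, 0; -1, 0]) 1 + a 0 1 • H912.tens e P !![0, 1; 0, 0] 1 +
      (-(a 1 0)) • H912.tens e P !![0, 0; -1, 0] 1 + (-(a 1 1)) • H912.tens e P (!![0, 0; -1, 0] * !![0, 1; 0, 0]) 1 := by
    rw [← blk_tens, ← blk_tens, ← blk_tens, ← blk_tens, ← blk_tens, ← map_smul (blk e P), ← map_smul (blk e P),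
      ← map_smul (blk e P), ← map_smul (blk e P), ← map_add (blk e P), ← map_add (blk e P), ← map_add (blk e P)]
    congr 1
    ext i j : 1
    fin_cases i <;> fin_cases j <;> simp
  rw [key]
  have hsm : ∀ (c : F) (y : Matrix (Fin m ⊕ Fin m) (Fin m ⊕ Fin m) F), (g : Matrix _ _ F) * (c • y) * ((g⁻¹ : GL (Fin m ⊕ Fin m) F) : Matrix _ _ F) =
      c • ((g : Matrix _ _ F) * y * ((g⁻¹ : GL (Fin m ⊕ Fin m) F) : Matrix _ _ F)) := fun c y => by
    rw [mul_smul_comm, smul_mul_assoc]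
  rw [mul_add, mul_add, mul_add, add_mul, add_mul, add_mul, hsm, hsm, hsm, hsm]
  exact add_mem (add_mem (add_mem ((tensAlg e P).smul_mem n12 _) ((tensAlg e P).smul_mem n1 _))
    ((tensAlg e P).smul_mem n2 _)) ((tensAlg e P).smul_mem n21 _)

end Setup

end Cfsg.Agent.H914.TensModel
end

-- part: H914/TensMax
section
/-!
# `Sp₂(q) ⊗ O₃(q)` is maximal in `Sp₆(q)`, `q ≥ 5` odd (helper914)
-/

set_option autoImplicit false
set_option linter.unusedSectionVars false

open Cfsg Cfsg.Geo Matrix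
open scoped Matrix MatrixGroups Kronecker

namespace Cfsg.Agent.H914.TensModel

open Cfsg.Agent.H912 Cfsg.Agent.H910 Cfsg.Agent.ClassicalGeometry.SympBasic Cfsg.Agent.H876 Cfsg.Agent.S5652
open Cfsg.Agent.H914.SymOps Cfsg.Agent.H914.RootPair Cfsg.Agent.H919

variable {F : Type*} [Field F] {m n : ℕ}

theorem hermForm_symplectic {κ : Type} [Fintype κ] [DecidableEq κ] {f : (κ → F) → (κ → F) → F} (h : IsSymplecticForm f) :
    HermForm (RingEquiv.refl F) (-1) f where
  add_left := h.bilinear.add_left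
  smul_left := h.bilinear.smul_left
  sigma_sq := fun _ => rfl
  eps := by simp
  herm := fun v w => by rw [h.skew v w]; simp
  nondegenerate := h.nondegenerate

theorem hermForm_symmetric {κ : Type} [Fintype κ] [DecidableEq κ] {f : (κ → F) → (κ → F) → F} (h : IsSymmetricForm f) :
    HermForm (RingEquiv.refl F) 1 f where
  add_left := h.bilinear.add_left
  smul_left := h.bilinear.smul_left
  sigma_sq := fun _ => rfl
  eps := by simp
  herm := fun v w => by rw [h.symm v w]; simp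
  nondegenerate := h.nondegenerate

/-- The bilinear form on the second factor. -/
noncomputable def bil {κ : Type} [Fintype κ] [DecidableEq κ] {f : (κ → F) → (κ → F) → F} (h : IsBilinearForm f) (c : F) :
    LinearMap.BilinForm F (κ → F) :=
  LinearMap.mk₂ F (fun x y => c * f x y) (fun x y v => by rw [h.add_left, mul_add])
    (fun a x v => by rw [h.smul_left, smul_eq_mul]; ring) (fun v x y => by rw [h.add_right, mul_add])
    (fun a v x => by rw [h.smul_right, smul_eq_mul]; ring)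

theorem bil_apply {κ : Type} [Fintype κ] [DecidableEq κ] {f : (κ → F) → (κ → F) → F} (h : IsBilinearForm f) (c : F)
    (x y : κ → F) : bil h c x y = c * f x y := rfl

theorem vec_eq_pt (e : Fin m ⊕ Fin m ≃ Fin 2 × Fin n) (P : GL (Fin m ⊕ Fin m) F) (y : Fin 2 → Fin n → F) :
    vec e P y = (P : Matrix _ _ F) *ᵥ (pt (Pi.single 0 1) (y 0) ∘ e) + (P : Matrix _ _ F) *ᵥ (pt (Pi.single 1 1) (y 1) ∘ e) := by
  unfold vec
  rw [← mulVec_add]
  congr 1
  funext i
  simp only [Pi.add_apply, Function.comp_apply, pt]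
  generalize e i = p
  obtain ⟨a, b⟩ := p
  fin_cases a <;> simp

theorem vec_injective {e : Fin m ⊕ Fin m ≃ Fin 2 × Fin n} {P : GL (Fin m ⊕ Fin m) F} :
    Function.Injective (vec e P) := by
  intro y y' hy
  unfold vec at hy
  have h1 := congrArg (fun v => ((P⁻¹ : GL (Fin m ⊕ Fin m) F) : Matrix (Fin m ⊕ Fin m) (Fin m ⊕ Fin m) F) *ᵥ v) hy
  simp only [mulVec_mulVec] at h1
  rw [Units.inv_mul, one_mulVec, one_mulVec] at h1
  funext i j
  have := congrFun h1 (e.symm (i, j))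
  simpa using this

/-- The setup from a tensor form structure. -/
theorem exists_setup {e : Fin m ⊕ Fin m ≃ Fin 2 × Fin n} {P : GL (Fin m ⊕ Fin m) F}
    {f₁ : (Fin 2 → F) → (Fin 2 → F) → F} {f₂ : (Fin n → F) → (Fin n → F) → F} (h1 : IsSymplecticForm f₁)
    (h2 : IsSymmetricForm f₂) (h : IsTensorFormStructure id (sympForm m F) f₁ f₂ e P) (two : (2 : F) ≠ 0)
    (big : ∃ t : F, t ≠ 0 ∧ t * t ≠ 1) :
    ∃ B : LinearMap.BilinForm F (Fin n → F), ∀ M : Subgroup (GL (Fin m ⊕ Fin m) F),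
      tensorProductSubgroup 2 n e P ⊓ spGL m F ≤ M → M ≤ spGL m F → Setup e P B M := by
  obtain ⟨c, hc, hform⟩ := form_pt (σ := RingEquiv.refl F) (hermForm_symplectic h1) (hermForm_symmetric h2) h
  set γ := f₁ (Pi.single 0 1) (Pi.single 1 1) with hγ
  have hskew : f₁ (Pi.single 1 1) (Pi.single 0 1) = -γ := h1.skew _ _
  have hγ0 : γ ≠ 0 := by
    intro h0
    obtain ⟨-, x, hx⟩ := h1.nondegenerate (Pi.single 0 1) (by simp)
    apply hx
    have hxe : x = x 0 • (Pi.single 0 1 : Fin 2 → F) + x 1 • (Pi.single 1 1 : Fin 2 → F) := by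
      funext i
      fin_cases i <;> simp
    rw [hxe, h1.bilinear.add_right, h1.bilinear.smul_right, h1.bilinear.smul_right, h1.alternating, ← hγ, h0]
    ring
  have hbadd := sympForm_add_left (F := F) (m := m)
  set B := bil h2.bilinear (c * γ) with hB
  have form : ∀ y y', sympForm m F (vec e P y) (vec e P y') = B (y 0) (y' 1) - B (y 1) (y' 0) := by
    intro y y'
    rw [vec_eq_pt, vec_eq_pt, sympForm_add_left, sympForm_add_right, sympForm_add_right, hform, hform, hform, hform,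
      h1.alternating, h1.alternating, ← hγ, hskew, hB, bil_apply, bil_apply]
    ring
  have hnd : ∀ x, (∀ y, B x y = 0) → x = 0 := by
    intro x hx
    by_contra hx0
    obtain ⟨-, y, hy⟩ := h2.nondegenerate x hx0
    apply hy
    have := hx y
    rw [hB, bil_apply] at this
    exact (mul_eq_zero.mp this).resolve_left (mul_ne_zero hc hγ0)
  refine ⟨B, fun M hHM hM =>
    { form := form
      symm := fun x y => by rw [hB, bil_apply, bil_apply, h2.symm]
      nd := hnd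
      two := two
      big := big
      le := hM
      tens := ?_ }⟩
  intro a r ha hr g hg
  apply hHM
  refine Subgroup.mem_inf.mpr ⟨?_, ?_⟩
  · rw [mem_tensorProductSubgroup_iff]
    have hrinj : IsUnit r := by
      rw [← Matrix.mulVec_injective_iff_isUnit]
      intro x y hxy
      have h3 : x - y = 0 := by
        apply hnd
        intro w
        rw [← hr (x - y) w, mulVec_sub]
        have : r *ᵥ x = r *ᵥ y := hxy
        rw [this, sub_self, map_zero]
        rfl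
      exact sub_eq_zero.mp h3
    obtain ⟨R, hR⟩ := hrinj
    exact ⟨Matrix.nonsingInvUnit a (by rw [ha]; exact isUnit_one), R, by rw [hg, hR]; rfl⟩
  · rw [Cfsg.Agent.H924.mem_spGL]
    intro u v
    obtain ⟨y, rfl⟩ := vec_surj (e := e) (P := P) u
    obtain ⟨y', rfl⟩ := vec_surj (e := e) (P := P) v
    rw [hg, ← blk_tens, blk_mulVec, blk_mulVec, form, form]
    simp only [Fin.sum_univ_two, Matrix.of_apply, smul_mulVec, map_add, map_smul, LinearMap.add_apply,
      LinearMap.smul_apply, smul_eq_mul, hr]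
    rw [det_fin_two] at ha
    linear_combination (B (y 0) (y' 1) - B (y 1) (y' 0)) * ha

/-- The symplectic group does not preserve the tensor decomposition. -/
theorem not_spGL_le {e : Fin m ⊕ Fin m ≃ Fin 2 × Fin n} {P : GL (Fin m ⊕ Fin m) F}
    {B : LinearMap.BilinForm F (Fin n → F)} {M : Subgroup (GL (Fin m ⊕ Fin m) F)} (h : Setup e P B M) {w w' : Fin n → F}
    (hw : B w w' ≠ 0) (hli : ∀ c : F, w ≠ c • w') : ¬ spGL m F ≤ tensorProductSubgroup 2 n e P := by
  intro hle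
  have h1 := hle (tGL_mem (tt e P ![0, 1] w') 1)
  rw [mem_tensorProductSubgroup_iff] at h1
  obtain ⟨a, b, hab⟩ := h1
  have h2 : (tGL (tt e P ![0, 1] w') 1 : Matrix _ _ F) *ᵥ tt e P ![1, 0] w = vec e P ![w, B w w' • w'] := by
    rw [tGL_mulVec, h.tt_form]
    unfold tt
    rw [← vec_smul, ← vec_add]
    congr 1
    funext i
    fin_cases i <;> simp [dt]
  rw [hab, tens_tt] at h2
  have h3 : (fun i => ((a : Matrix (Fin 2) (Fin 2) F) *ᵥ ![1, 0]) i • ((b : Matrix (Fin n) (Fin n) F) *ᵥ w)) = ![w, B w w' • w'] :=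
    vec_injective h2
  have e0 := congrFun h3 0
  have e1 := congrFun h3 1
  simp only [Matrix.cons_val_zero, Matrix.cons_val_one, Matrix.cons_val_fin_one] at e0 e1
  set p := ((a : Matrix (Fin 2) (Fin 2) F) *ᵥ ![1, 0]) 0 with hp
  set q := ((a : Matrix (Fin 2) (Fin 2) F) *ᵥ ![1, 0]) 1 with hq
  set x := (b : Matrix (Fin n) (Fin n) F) *ᵥ w with hx
  have hq0 : q ≠ 0 := by
    intro h0
    rw [h0, zero_smul] at e1
    rcases smul_eq_zero.mp e1.symm with h4 | h4
    · exact hw h4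
    · apply hw
      rw [h4, map_zero]
  apply hli (p * q⁻¹ * B w w')
  rw [mul_smul, ← e1, smul_smul, mul_assoc, inv_mul_cancel₀ hq0, mul_one, e0]

/-- **Part (7) of S5804.** -/
theorem tensor_two_three_maximal [Finite F] (hodd : (2 : F) ≠ 0) (hq : 5 ≤ Nat.card F)
    (e : Fin 3 ⊕ Fin 3 ≃ Fin 2 × Fin 3) (P : GL (Fin 3 ⊕ Fin 3) F)
    (f₁ : (Fin 2 → F) → (Fin 2 → F) → F) (f₂ : (Fin 3 → F) → (Fin 3 → F) → F) (h1 : IsSymplecticForm f₁)
    (h2 : IsSymmetricForm f₂) (h : IsTensorFormStructure id (sympForm 3 F) f₁ f₂ e P) :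
    IsMaximalIn (spGL 3 F) (tensorProductSubgroup 2 3 e P ⊓ spGL 3 F) := by
  classical
  have := Fintype.ofFinite F
  have big : ∃ t : F, t ≠ 0 ∧ t * t ≠ 1 := by
    by_contra hno
    push Not at hno
    have hsub : (Finset.univ : Finset F) ⊆ {0, 1, -1} := by
      intro t _
      by_cases ht : t = 0
      · simp [ht]
      · have h3 : (t - 1) * (t + 1) = 0 := by linear_combination hno t ht
        rcases mul_eq_zero.mp h3 with h4 | h4
        · simp [sub_eq_zero.mp h4]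
        · simp [eq_neg_of_add_eq_zero_left h4]
    have h5 := Finset.card_le_card hsub
    rw [Finset.card_univ, ← Nat.card_eq_fintype_card] at h5
    have h6 : ({0, 1, -1} : Finset F).card ≤ 3 := Finset.card_le_three
    omega
  have hk2 : ringChar F ≠ 2 := by
    intro h3
    apply hodd
    have := CharP.cast_eq_zero F (ringChar F)
    rw [h3] at this
    exact_mod_cast this
  obtain ⟨B, hB⟩ := exists_setup h1 h2 h hodd big
  have hS0 := hB _ le_rfl inf_le_right
  -- an orthogonal basis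
  have hBs : LinearMap.IsSymm B := ⟨fun x y => by simpa using hS0.symm x y⟩
  have : Invertible (2 : F) := invertibleOfNonzero hodd
  obtain ⟨v, hv⟩ := LinearMap.BilinForm.exists_orthogonal_basis hBs
  have hd : Module.finrank F (Fin 3 → F) = 3 := Module.finrank_fin_fun F
  have hsep : LinearMap.SeparatingLeft B := fun x hx => hS0.nd x hx
  have hne : ∀ i, B (v i) (v i) ≠ 0 := fun i => hv.not_isOrtho_basis_self_of_separatingLeft hsep i
  have hor : ∀ i j, i ≠ j → B (v i) (v j) = 0 := fun i j hij => hv hij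
  let f : Fin 3 → Fin (Module.finrank F (Fin 3 → F)) := Fin.cast hd.symm
  have hf : ∀ i j, i ≠ j → f i ≠ f j := fun i j hij h => hij (Fin.cast_injective _ h)
  have htri : Tri B (v (f 0)) (v (f 1)) (v (f 2)) :=
    ⟨hne _, hne _, hne _, hor _ _ (hf _ _ (by decide)), hor _ _ (hf _ _ (by decide)), hor _ _ (hf _ _ (by decide))⟩
  refine ⟨lt_of_le_of_ne inf_le_right ?_, ?_⟩
  · intro heq
    obtain ⟨c, hc0, hc⟩ := hS0.good.exists_c htri.xx htri.yy
    refine not_spGL_le hS0 (w := v (f 0) + c • v (f 1)) (w' := v (f 1)) ?_ ?_ (by rw [← heq]; exact inf_le_left)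
    · rw [map_add, map_smul, LinearMap.add_apply, LinearMap.smul_apply, htri.xy, zero_add, smul_eq_mul]
      exact mul_ne_zero hc0 htri.yy
    · intro d hd'
      have h3 := congrArg (fun z => B z (v (f 0))) hd'
      simp only [map_add, map_smul, LinearMap.add_apply, LinearMap.smul_apply, hS0.symm (v (f 1)) (v (f 0)), htri.xy,
        smul_zero, add_zero] at h3
      exact htri.xx h3
  · intro M hHM hM
    have hS := hB M hHM hM
    by_cases hsc : ∀ T ∈ hS.Smod, ∃ c : F, ∀ w, T w = c • w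
    · left
      refine le_antisymm ?_ hHM
      exact le_inf (hS.le_of_scalar (by norm_num) le_rfl hsc hk2 (by omega)) hM
    · right
      push Not at hsc
      obtain ⟨T, hT, hns⟩ := hsc
      obtain ⟨e₀, e', z, h00, h11, h01, h0z, h1z, hzz, hspan, hv'⟩ := hS.good.main hd htri hT (by
        rintro ⟨c, hc⟩
        obtain ⟨w, hw⟩ := hns c
        exact hw (hc w))
      exact le_antisymm hM (spGL_le_of_UU (hS.UU_all h00 h11 h01 h0z h1z hzz hspan hv'))

end Cfsg.Agent.H914.TensModel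
end
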